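import Cfsg.Agent.Lib.LocalChar.AlperinFixedLie
import Cfsg.Agent.Lib.HallHigman.Faithful
import Cfsg.Agent.Lib.HallHigman.Solvable
import Cfsg.Agent.Lib.Components.PComponent
import Cfsg.Agent.S3780

/-!
Alperin's theorem: the derived length of a finite solvable group with an automorphism of order `p` with
`p ^ n` fixed points is bounded in terms of `p` and `n`.
-/

set_option autoImplicit false
set_option linter.unusedSectionVars false

namespace Cfsg.Agent.Lib.LocalChar.AlperinFixed

open Subgroup
open scoped commutatorElement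

universe u

variable {G : Type u} [Group G]

/-- The number of fixed points. -/
noncomputable def nfix (α : MulAut G) : ℕ := Nat.card {g : G // α g = g}

/-- The subgroup of fixed points. -/
def fixSub (α : MulAut G) : Subgroup G where
  carrier := {g | α g = g}
  one_mem' := map_one α
  mul_mem' {a b} ha hb := by
    show α (a * b) = a * b
    rw [map_mul]; exact congrArg₂ (· * ·) ha hb
  inv_mem' {a} ha := by
    show α a⁻¹ = a⁻¹
    rw [map_inv]; exact congrArg (·⁻¹) ha

theorem card_fixSub (α : MulAut G) : Nat.card (fixSub α) = nfix α := rfl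

theorem intertwine_pow {H : Type*} [Group H] (f : G → H) (α : MulAut G) (β : MulAut H)
    (h : ∀ g, f (α g) = β (f g)) (i : ℕ) : ∀ g, f ((α ^ i) g) = (β ^ i) (f g) := by
  induction i with
  | zero => exact fun g => rfl
  | succ i ih => intro g; rw [pow_succ', pow_succ', MulAut.mul_apply, MulAut.mul_apply, h, ih]

theorem pow_eq_one_of_surjective {H : Type*} [Group H] {f : G →* H} (hf : Function.Surjective f) (α : MulAut G)
    (β : MulAut H) (h : ∀ g, f (α g) = β (f g)) {i : ℕ} (hα : α ^ i = 1) : β ^ i = 1 := by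
  refine MulEquiv.ext fun x => ?_
  obtain ⟨g, rfl⟩ := hf x
  rw [← intertwine_pow f α β h i g, hα]; rfl

theorem pow_eq_one_of_injective {H : Type*} [Group H] {f : H →* G} (hf : Function.Injective f) (α : MulAut G)
    (β : MulAut H) (h : ∀ x, f (β x) = α (f x)) {i : ℕ} (hα : α ^ i = 1) : β ^ i = 1 := by
  refine MulEquiv.ext fun x => hf ?_
  rw [intertwine_pow f β α h i x, hα]; rfl

variable [Finite G]

theorem nfix_le_of_injective {H : Type*} [Group H] {f : H →* G} (hf : Function.Injective f) (α : MulAut G)
    (β : MulAut H) (h : ∀ x, f (β x) = α (f x)) : nfix β ≤ nfix α :=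
  Nat.card_le_card_of_injective (fun x => ⟨f x.1, by rw [← h, x.2]⟩) fun x y e =>
    Subtype.ext (hf (congrArg Subtype.val e))

/-- A fixed coset contains fixed points in the average. -/
theorem nfix_le_of_surjective {H : Type*} [Group H] {f : G →* H} (hf : Function.Surjective f) (α : MulAut G)
    (β : MulAut H) (h : ∀ g, f (α g) = β (f g)) : nfix β ≤ nfix α := by
  classical
  haveI : Finite H := Finite.of_surjective f hf
  set S := (fixSub β).comap f
  have hS : Nat.card S = Nat.card f.ker * nfix β := by
    have hr : (f.subgroupComap (fixSub β)).range = ⊤ :=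
      MonoidHom.range_eq_top.2 (f.subgroupComap_surjective_of_surjective _ hf)
    have h1 := (f.subgroupComap (fixSub β)).ker.card_mul_index
    rw [Subgroup.index_ker, hr, Subgroup.card_top] at h1
    rw [← card_fixSub, ← h1]
    refine congrArg (· * _) (Nat.card_congr ?_)
    exact { toFun := fun x => ⟨((x : S) : G), congrArg Subtype.val (MonoidHom.mem_ker.1 x.2)⟩
            invFun := fun x => ⟨⟨x.1, show f x.1 ∈ fixSub β by rw [MonoidHom.mem_ker.1 x.2]; exact one_mem _⟩,
              MonoidHom.mem_ker.2 (Subtype.ext (MonoidHom.mem_ker.1 x.2))⟩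
            left_inv := fun x => rfl
            right_inv := fun x => rfl }
  let φ : S → f.ker := fun g => ⟨(g : G)⁻¹ * α g, by
    rw [MonoidHom.mem_ker, map_mul, map_inv, h, show β (f g) = f g from g.2, inv_mul_cancel]⟩
  haveI : Nonempty S := ⟨1⟩
  let sec : f.ker → S := Function.invFun φ
  let ψ : S → f.ker × {g : G // α g = g} := fun g => (φ g, ⟨(g : G) * ((sec (φ g) : S) : G)⁻¹, by
    have h1 : φ (sec (φ g)) = φ g := Function.invFun_eq ⟨g, rfl⟩
    have h2 : ((sec (φ g) : S) : G)⁻¹ * α (sec (φ g)) = (g : G)⁻¹ * α g := congrArg Subtype.val h1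
    have h3 : α ((sec (φ g) : S) : G) = ((sec (φ g) : S) : G) * ((g : G)⁻¹ * α g) := by rw [← h2, mul_inv_cancel_left]
    rw [map_mul, map_inv, h3]; group⟩)
  have hψ : Function.Injective ψ := by
    intro a b e
    have e1 : φ a = φ b := congrArg Prod.fst e
    have e2 : (a : G) * ((sec (φ a) : S) : G)⁻¹ = (b : G) * ((sec (φ b) : S) : G)⁻¹ :=
      congrArg (fun z => (z.2 : G)) e
    rw [e1] at e2
    exact Subtype.ext (mul_right_cancel e2)
  have h4 := Nat.card_le_card_of_injective ψ hψ
  rw [hS, Nat.card_prod] at h4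
  exact Nat.le_of_mul_le_mul_left h4 Nat.card_pos

/-- Restriction to an invariant subgroup. -/
noncomputable def restr (α : MulAut G) (H : Subgroup G) (h : H.map α.toMonoidHom = H) : MulAut H :=
  (H.equivMapOfInjective α.toMonoidHom α.injective).trans (MulEquiv.subgroupCongr h)

theorem restr_coe (α : MulAut G) (H : Subgroup G) (h : H.map α.toMonoidHom = H) (x : H) :
    ((restr α H h x : H) : G) = α x := rfl

theorem nfix_restr (α : MulAut G) (H : Subgroup G) (h : H.map α.toMonoidHom = H) : nfix (restr α H h) ≤ nfix α :=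
  nfix_le_of_injective H.subtype_injective α _ (restr_coe α H h)

theorem restr_pow (α : MulAut G) (H : Subgroup G) (h : H.map α.toMonoidHom = H) {i : ℕ} (hα : α ^ i = 1) :
    restr α H h ^ i = 1 :=
  pow_eq_one_of_injective (f := H.subtype) H.subtype_injective α (restr α H h) (fun x => restr_coe α H h x) hα

theorem orderOf_le_nfix (α : MulAut G) {g : G} (hg : α g = g) : orderOf g ≤ nfix α := by
  rw [← Nat.card_zpowers, ← card_fixSub]
  exact Subgroup.card_le_of_le (zpowers_le.2 hg)

section abelian

/-- The kernel of an endomorphism. -/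
def kerE {A : Type*} [AddCommGroup A] (f : AddMonoid.End A) : AddSubgroup A where
  carrier := {v | f v = 0}
  zero_mem' := map_zero f
  add_mem' {a b} ha hb := by
    show f (a + b) = 0
    rw [map_add, show f a = 0 from ha, show f b = 0 from hb, add_zero]
  neg_mem' {a} ha := by
    show f (-a) = 0
    rw [map_neg, show f a = 0 from ha, neg_zero]

theorem card_ker_pow_le {A : Type*} [AddCommGroup A] [Finite A] (f : AddMonoid.End A) (k : ℕ) :
    Nat.card (kerE (f ^ k)) ≤ Nat.card (kerE f) ^ k := by
  induction k with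
  | zero =>
    rw [pow_zero, pow_zero, Finite.card_le_one_iff_subsingleton]
    exact ⟨fun a b => Subtype.ext ((show (a : A) = 0 from a.2).trans (show (b : A) = 0 from b.2).symm)⟩
  | succ k ih =>
    let g : kerE (f ^ (k + 1)) →+ kerE f :=
      { toFun := fun v => ⟨(f ^ k) v.1, show f ((f ^ k) v.1) = 0 from
          (DFunLike.congr_fun (pow_succ' f k) v.1).symm.trans v.2⟩
        map_zero' := Subtype.ext (map_zero _)
        map_add' := fun u v => Subtype.ext (map_add _ _ _) }
    have h2 : Nat.card g.ker * Nat.card g.range = Nat.card (kerE (f ^ (k + 1))) := by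
      rw [← AddSubgroup.index_ker]; exact g.ker.card_mul_index
    refine h2.symm.le.trans ((Nat.mul_le_mul (le_trans ?_ ih) (Finite.card_subtype_le _)).trans (pow_succ _ k).ge)
    refine Nat.card_le_card_of_injective
      (fun v => ⟨((v : kerE (f ^ (k + 1))) : A), ?_⟩) fun u v e => ?_
    · exact congrArg Subtype.val (show g v.1 = 0 from v.2)
    · exact Subtype.ext (Subtype.ext (congrArg Subtype.val e :))

variable {p : ℕ} [hp : Fact p.Prime] {V : Type u} [CommGroup V] [Finite V]

theorem card_le_of_elementary (α : MulAut V) (hα : α ^ p = 1) (q : ℕ) (hfix : nfix α ≤ q)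
    (hexp : ∀ v : V, v ^ p = 1) : Nat.card V ≤ q ^ p := by
  let a : AddMonoid.End (Additive V) := (MulEquiv.toAdditive α).toAddMonoidHom
  have hpow : ∀ (i : ℕ) (v : Additive V), (a ^ i : AddMonoid.End (Additive V)) v = Additive.ofMul ((α ^ i) v.toMul) := by
    intro i
    induction i with
    | zero => exact fun v => rfl
    | succ i ih =>
      intro v
      rw [pow_succ', pow_succ', MulAut.mul_apply]
      show a ((a ^ i : AddMonoid.End (Additive V)) v) = _
      rw [ih]; rfl
  have hap : a ^ p = 1 := AddMonoidHom.ext fun v => (hpow p v).trans (by rw [hα]; rfl)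
  obtain ⟨r, hr⟩ := S3780.sub_one_pow_prime hp.out a hap
  have h1 := card_ker_pow_le (a - 1) p
  have h2 : kerE ((a - 1) ^ p) = ⊤ := by
    refine top_le_iff.1 fun v _ => ?_
    show ((a - 1) ^ p) v = 0
    rw [hr]
    show ((p : AddMonoid.End (Additive V))) (r v) = 0
    rw [AddMonoid.End.natCast_apply]
    exact Additive.toMul.injective (hexp _)
  rw [h2, AddSubgroup.card_top] at h1
  refine le_trans h1 (Nat.pow_le_pow_left (le_trans (le_of_eq (Nat.card_congr ?_)) hfix) p)
  exact Equiv.subtypeEquiv Additive.toMul fun v => (sub_eq_zero (a := a v) (b := v)).trans Iff.rfl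

theorem card_le_of_exponent (α : MulAut V) (hα : α ^ p = 1) (q : ℕ) (hfix : nfix α ≤ q) (N : ℕ)
    (hexp : ∀ v : V, v ^ p ^ N = 1) : Nat.card V ≤ (q ^ p) ^ N := by
  let P : AddMonoid.End (Additive V) := (p : AddMonoid.End (Additive V))
  have h1 := card_ker_pow_le P N
  have h2 : kerE (P ^ N) = ⊤ := by
    refine top_le_iff.1 fun v _ => ?_
    show ((p : AddMonoid.End (Additive V)) ^ N) v = 0
    rw [← Nat.cast_pow, AddMonoid.End.natCast_apply]
    exact Additive.toMul.injective (hexp _)
  rw [h2, AddSubgroup.card_top] at h1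
  refine le_trans h1 (Nat.pow_le_pow_left ?_ N)
  set E := (powMonoidHom p : V →* V).ker
  have hE : Nat.card (kerE P) = Nat.card E :=
    Nat.card_congr (Equiv.subtypeEquiv Additive.toMul fun v => by
      rw [MonoidHom.mem_ker]
      show (p : AddMonoid.End (Additive V)) v = 0 ↔ _
      rw [AddMonoid.End.natCast_apply]
      exact ⟨fun e => congrArg Additive.toMul e, fun e => Additive.toMul.injective e⟩)
  rw [hE]
  have hinv : E.map α.toMonoidHom = E := by
    ext v
    rw [Subgroup.mem_map_equiv, MonoidHom.mem_ker, MonoidHom.mem_ker, powMonoidHom_apply, powMonoidHom_apply,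
      ← map_pow, EmbeddingLike.map_eq_one_iff]
  exact card_le_of_elementary (restr α E hinv) (restr_pow α E hinv hα) q ((nfix_restr α E hinv).trans hfix)
    fun v => Subtype.ext v.2

end abelian

section chain

variable {p : ℕ} [hp : Fact p.Prime]

/-- The Frattini subgroup of a subgroup. -/
def fr (X : Subgroup G) : Subgroup G := (frattini ↥X).map X.subtype

theorem fr_normal (X : Subgroup G) [X.Normal] : (fr X).Normal :=
  ConjAct.normal_of_characteristic_of_normal

theorem fr_inv (α : MulAut G) (X : Subgroup G) (h : X.map α.toMonoidHom = X) : (fr X).map α.toMonoidHom = fr X := by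
  have h1 : (frattini ↥X).map (restr α X h).toMonoidHom = frattini ↥X :=
    Subgroup.characteristic_iff_map_eq.1 inferInstance _
  rw [fr]
  conv_rhs => rw [← h1, Subgroup.map_map]
  rw [Subgroup.map_map]
  rfl

theorem card_le_fr (α : MulAut G) (hα : α ^ p = 1) (q : ℕ) (hfix : nfix α ≤ q) (X : Subgroup G)
    (hX : IsPGroup p X) (h : X.map α.toMonoidHom = X) : Nat.card X ≤ q ^ p * Nat.card (fr X) := by
  letI : CommGroup (↥X ⧸ frattini ↥X) :=
    { (inferInstance : Group (↥X ⧸ frattini ↥X)) with
      mul_comm := fun a b => by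
        induction a using QuotientGroup.induction_on with | _ a =>
        induction b using QuotientGroup.induction_on with | _ b =>
        rw [← QuotientGroup.mk_mul, ← QuotientGroup.mk_mul, QuotientGroup.eq]
        refine PGroupFrattini.commutator_le_frattini hX ?_
        rw [show (a * b)⁻¹ * (b * a) = ⁅b⁻¹, a⁻¹⁆ by rw [commutatorElement_def]; group, commutator_def]
        exact Subgroup.commutator_mem_commutator (Subgroup.mem_top _) (Subgroup.mem_top _) }
  let β : MulAut (↥X ⧸ frattini ↥X) := QuotientGroup.congr (frattini ↥X) (frattini ↥X) (restr α X h)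
    (Subgroup.characteristic_iff_map_eq.1 inferInstance _)
  have hβ : ∀ g, QuotientGroup.mk' (frattini ↥X) (restr α X h g) = β (QuotientGroup.mk' (frattini ↥X) g) := fun g => rfl
  have h1 := card_le_of_elementary β
    (pow_eq_one_of_surjective (QuotientGroup.mk'_surjective _) _ β hβ (restr_pow α X h hα)) q
    (((nfix_le_of_surjective (QuotientGroup.mk'_surjective _) _ β hβ)).trans ((nfix_restr α X h).trans hfix))
    (fun v => by
      induction v using QuotientGroup.induction_on with | _ v =>
      rw [← QuotientGroup.mk_pow]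
      exact (QuotientGroup.eq_one_iff _).2 (PGroupFrattini.pow_mem_frattini hX v))
  rw [Subgroup.card_eq_card_quotient_mul_card_subgroup (frattini ↥X), fr,
    Subgroup.card_map_of_injective X.subtype_injective]
  exact Nat.mul_le_mul_right _ h1

theorem fr_card_le (X : Subgroup G) (hX : IsPGroup p X) (hne : X ≠ ⊥) : p * Nat.card (fr X) ≤ Nat.card X := by
  rw [fr, Subgroup.card_map_of_injective X.subtype_injective]
  haveI : Nontrivial X := (Subgroup.nontrivial_iff_ne_bot X).2 hne
  obtain ⟨K, hK, -⟩ := (eq_top_or_exists_le_coatom (⊥ : Subgroup X)).resolve_left bot_ne_top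
  obtain ⟨-, hi⟩ := PGroupFrattini.coatom_index hX hK
  refine le_trans (Nat.mul_le_mul_left p (Subgroup.card_le_of_le (frattini_le_coatom hK))) ?_
  rw [← hi, mul_comm, K.card_mul_index]

/-- The iterated Frattini subgroups. -/
def frIter (X : Subgroup G) : ℕ → Subgroup G
  | 0 => X
  | s + 1 => fr (frIter X s)

theorem frIter_le (X : Subgroup G) : ∀ s, frIter X s ≤ X
  | 0 => le_rfl
  | s + 1 => (Subgroup.map_subtype_le _).trans (frIter_le X s)

theorem frIter_inv (α : MulAut G) (X : Subgroup G) (h : X.map α.toMonoidHom = X) :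
    ∀ s, (frIter X s).map α.toMonoidHom = frIter X s
  | 0 => h
  | s + 1 => fr_inv α _ (frIter_inv α X h s)

theorem frIter_normal (X : Subgroup G) [hn : X.Normal] : ∀ s, (frIter X s).Normal
  | 0 => hn
  | s + 1 => by
    haveI := frIter_normal X s
    exact fr_normal _

theorem card_le_frIter (α : MulAut G) (hα : α ^ p = 1) (q : ℕ) (hfix : nfix α ≤ q) (X : Subgroup G)
    (hX : IsPGroup p X) (h : X.map α.toMonoidHom = X) :
    ∀ s, Nat.card X ≤ (q ^ p) ^ s * Nat.card (frIter X s)
  | 0 => by simp [frIter]
  | s + 1 => by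
    refine (card_le_frIter α hα q hfix X hX h s).trans ?_
    rw [pow_succ, mul_assoc]
    exact Nat.mul_le_mul_left _
      (card_le_fr α hα q hfix _ (hX.to_le (frIter_le X s)) (frIter_inv α X h s))

theorem frIter_card_le (X : Subgroup G) (hX : IsPGroup p X) :
    ∀ s, frIter X s ≠ ⊥ → p ^ s * Nat.card (frIter X s) ≤ Nat.card X
  | 0, _ => by simp [frIter]
  | s + 1, hs => by
    have hs' : frIter X s ≠ ⊥ := fun h => hs (le_bot_iff.1 ((Subgroup.map_subtype_le _).trans h.le))
    refine le_trans ?_ (frIter_card_le X hX s hs')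
    rw [pow_succ, mul_assoc]
    exact Nat.mul_le_mul_left _ (fr_card_le _ (hX.to_le (frIter_le X s)) hs')

end chain

section derived

theorem derivedSeries_card_eq_bot {H : Type*} [Group H] [Finite H] [Group.IsSolvable H] :
    derivedSeries H (Nat.card H) = ⊥ := by
  have key : ∀ k, derivedSeries H k = ⊥ ∨ Nat.card (derivedSeries H k) + k ≤ Nat.card H := by
    intro k
    induction k with
    | zero => exact Or.inr (by rw [derivedSeries_zero, Subgroup.card_top, add_zero])
    | succ k ih =>
      rcases ih with h | h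
      · exact Or.inl (by rw [derivedSeries_succ, h]; simp)
      · by_cases hb : derivedSeries H k = ⊥
        · exact Or.inl (by rw [derivedSeries_succ, hb]; simp)
        refine Or.inr (le_trans ?_ h)
        have hlt : derivedSeries H (k + 1) < derivedSeries H k := by
          haveI : Nontrivial (derivedSeries H k) := (Subgroup.nontrivial_iff_ne_bot _).2 hb
          have h2 := Group.IsSolvable.commutator_lt_top_of_nontrivial (G := ↥(derivedSeries H k))
          rw [derivedSeries_succ, ← Subgroup.map_subtype_commutator]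
          conv_rhs => rw [← Subgroup.range_subtype (derivedSeries H k), MonoidHom.range_eq_map]
          exact (Subgroup.map_lt_map_iff_of_injective (derivedSeries H k).subtype_injective).2 h2
        have : Nat.card (derivedSeries H (k + 1)) < Nat.card (derivedSeries H k) := by
          by_contra hc
          exact hlt.ne (Subgroup.eq_of_le_of_card_ge hlt.le (not_lt.1 hc))
        omega
  rcases key (Nat.card H) with h | h
  · exact h
  · have := Nat.card_pos (α := derivedSeries H (Nat.card H))
    omega

theorem map_derived {H : Type*} [Group H] (f : G →* H) (k : ℕ) :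
    (derivedSeries G k).map f ≤ derivedSeries H k := map_derivedSeries_le_derivedSeries f k

theorem derived_add (a : ℕ) : ∀ k, derivedSeries G (a + k) = (derivedSeries ↥(derivedSeries G a) k).map (derivedSeries G a).subtype
  | 0 => by rw [derivedSeries_zero, ← MonoidHom.range_eq_map, Subgroup.range_subtype, add_zero]
  | k + 1 => by rw [← add_assoc, derivedSeries_succ, derived_add a k, derivedSeries_succ, Subgroup.map_commutator]

theorem derived_le_of_le {a : ℕ} {K : Subgroup G} (h : derivedSeries G a ≤ K) (k : ℕ) :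
    derivedSeries G (a + k) ≤ (derivedSeries ↥K k).map K.subtype := by
  rw [derived_add]
  have := Subgroup.map_mono (f := K.subtype) (map_derived (Subgroup.inclusion h) k)
  rwa [Subgroup.map_map, Subgroup.subtype_comp_inclusion] at this

/-- Deep terms of the derived series act trivially on small normal sections. -/
theorem commutator_derived_le [Group.IsSolvable G] (X Y : Subgroup G) [X.Normal] [Y.Normal] (hYX : Y ≤ X)
    (B : ℕ) (hB : Nat.card X ≤ B * Nat.card Y) : ⁅X, derivedSeries G (B ^ B)⁆ ≤ Y := by
  set q := QuotientGroup.mk' Y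
  have hq : Function.Surjective q := QuotientGroup.mk'_surjective Y
  haveI : (X.map q).Normal := Subgroup.Normal.map inferInstance _ hq
  have hcard : Nat.card (X.map q) ≤ B := by
    have h1 : Nat.card X = Nat.card (X.map q) * Nat.card Y := by
      have h2 := (q.subgroupMap X).ker.card_mul_index
      rw [Subgroup.index_ker, MonoidHom.range_eq_top.2 (q.subgroupMap_surjective X), Subgroup.card_top] at h2
      rw [← h2, mul_comm]
      refine congrArg (_ * ·) (Nat.card_congr ?_)
      exact { toFun := fun x => ⟨((x : X) : G), (QuotientGroup.eq_one_iff _).1 (congrArg Subtype.val (MonoidHom.mem_ker.1 x.2))⟩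
              invFun := fun y => ⟨⟨y.1, hYX y.2⟩, MonoidHom.mem_ker.2 (Subtype.ext ((QuotientGroup.eq_one_iff _).2 y.2))⟩
              left_inv := fun x => rfl
              right_inv := fun y => rfl }
    rw [h1] at hB
    exact Nat.le_of_mul_le_mul_right hB Nat.card_pos
  let φ : G →* MulAut (X.map q) := MulAut.conjNormal.comp q
  have hr : Nat.card φ.range ≤ B ^ B := by
    refine le_trans (Subgroup.card_le_card_group _) (le_trans (Nat.card_le_card_of_injective
      (fun e : MulAut (X.map q) => (e : X.map q → X.map q)) DFunLike.coe_injective) ?_)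
    rw [Nat.card_fun]
    exact (Nat.pow_le_pow_left hcard _).trans (Nat.pow_le_pow_right (Nat.card_pos.trans_le hcard) hcard)
  haveI : Group.IsSolvable φ.range := Group.isSolvable_of_surjective φ.rangeRestrict_surjective
  have hker : derivedSeries G (B ^ B) ≤ φ.ker := by
    intro g hg
    have h1 := map_derived φ.rangeRestrict _ (mem_map_of_mem φ.rangeRestrict hg)
    have h2 : derivedSeries φ.range (B ^ B) = ⊥ :=
      le_bot_iff.1 ((derivedSeries_antitone _ hr).trans derivedSeries_card_eq_bot.le)
    rw [h2, mem_bot] at h1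
    exact MonoidHom.mem_ker.2 (congrArg Subtype.val h1)
  refine commutator_le.2 fun x hx g hg => ?_
  rw [← QuotientGroup.eq_one_iff]
  show q ⁅x, g⁆ = 1
  rw [map_commutatorElement, commutatorElement_eq_one_iff_mul_comm]
  have h1 : ((φ g ⟨q x, mem_map_of_mem q hx⟩ : X.map q) : G ⧸ Y) = q x := by
    rw [MonoidHom.mem_ker.1 (hker hg)]; rfl
  have h2 : q g * q x * (q g)⁻¹ = q x := h1
  exact (mul_inv_eq_iff_eq_mul.1 h2).symm

end derived

/-- The class bound of Kreknin. -/
def kc (p : ℕ) : ℕ := ∑ i ∈ Finset.range (2 ^ (p - 1) - 1), (p - 1) ^ i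

/-- The bound for the derived length of a p-group. -/
def pBound (p n : ℕ) : ℕ :=
  let N := (n + 1) * (kc p + 1)
  let s := n * p * N + 1
  let B := ((p ^ n) ^ p) ^ s
  B ^ B + (kc p + 1)

variable {p : ℕ} [hp : Fact p.Prime]

theorem derived_pGroup (hG : IsPGroup p G) (α : MulAut G) (hα : α ^ p = 1) (n : ℕ) (hfix : nfix α ≤ p ^ n) :
    derivedSeries G (pBound p n) = ⊥ := by
  haveI := hG.isNilpotent
  set N := (n + 1) * (kc p + 1) with hN
  set s := n * p * N + 1 with hs
  set B := ((p ^ n) ^ p) ^ s with hB
  set W := derivedSeries G (B ^ B) with hW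
  have hWinv : W.map α.toMonoidHom = W := Subgroup.characteristic_iff_map_eq.1 inferInstance α
  set β := restr α W hWinv with hβ
  have hβp : β ^ p = 1 := restr_pow α W hWinv hα
  have hβfix : nfix β ≤ p ^ n := (nfix_restr α W hWinv).trans hfix
  -- fixed points in the factors have bounded order
  have hq : ∀ k, ∀ g ∈ Kreknin.gam ↥W k, g⁻¹ * β g ∈ Kreknin.gam ↥W (k + 1) → g ^ p ^ n ∈ Kreknin.gam ↥W (k + 1) := by
    intro k g _ hg
    have hinv : (Kreknin.gam ↥W (k + 1)).map β.toMonoidHom = Kreknin.gam ↥W (k + 1) :=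
      Subgroup.characteristic_iff_map_eq.1 inferInstance β
    let γ : MulAut (↥W ⧸ Kreknin.gam ↥W (k + 1)) := QuotientGroup.congr _ _ β hinv
    have hγ : ∀ x, QuotientGroup.mk' (Kreknin.gam ↥W (k + 1)) (β x) = γ (QuotientGroup.mk' (Kreknin.gam ↥W (k + 1)) x) :=
      fun x => rfl
    have h1 : γ (g : ↥W ⧸ Kreknin.gam ↥W (k + 1)) = g := (QuotientGroup.eq.2 hg).symm
    have h2 := ((orderOf_le_nfix γ h1).trans (nfix_le_of_surjective (QuotientGroup.mk'_surjective _) β γ hγ)).trans hβfix
    obtain ⟨i, hi⟩ := IsPGroup.iff_orderOf.1 ((hG.to_subgroup W).to_quotient (Kreknin.gam ↥W (k + 1))) (g : ↥W ⧸ _)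
    rw [hi] at h2
    rw [← QuotientGroup.eq_one_iff, QuotientGroup.mk_pow]
    refine orderOf_dvd_iff_pow_eq_one.1 ?_
    rw [hi]
    exact pow_dvd_pow p ((Nat.pow_le_pow_iff_right hp.out.one_lt).1 h2)
  have hpow : ∀ g ∈ Kreknin.gam ↥W (kc p), g ^ p ^ N ∈ Kreknin.gam ↥W (kc p + 1) := by
    intro g hg
    have := pow_gam_mem β hβp (p ^ n) hq (kc p) (fun C hC d => Kreknin.iterBr_eq_bot_kreknin hC d) g hg
    rwa [← pow_succ', ← pow_mul] at this
  -- the factor is small
  have hcinv : (Kreknin.gam ↥W (kc p)).map β.toMonoidHom = Kreknin.gam ↥W (kc p) :=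
    Subgroup.characteristic_iff_map_eq.1 inferInstance β
  set δ := restr β (Kreknin.gam ↥W (kc p)) hcinv with hδ
  have hdinv : ((Kreknin.gam ↥W (kc p + 1)).subgroupOf (Kreknin.gam ↥W (kc p))).map δ.toMonoidHom =
      (Kreknin.gam ↥W (kc p + 1)).subgroupOf (Kreknin.gam ↥W (kc p)) := by
    ext x
    rw [Subgroup.mem_map_equiv, mem_subgroupOf, mem_subgroupOf]
    have e : β ((δ.symm x : ↥(Kreknin.gam ↥W (kc p))) : ↥W) = (x : ↥W) :=
      (restr_coe β _ hcinv (δ.symm x)).symm.trans (congrArg Subtype.val (δ.apply_symm_apply x))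
    refine ⟨fun h => e ▸ Kreknin.apply_mem_gam β h, fun h => ?_⟩
    have := Kreknin.apply_mem_gam β.symm h
    rwa [← e, β.symm_apply_apply] at this
  let ε : MulAut (Kreknin.Factor ↥W (kc p)) := QuotientGroup.congr _ _ δ hdinv
  have hε : ∀ x, QuotientGroup.mk' ((Kreknin.gam ↥W (kc p + 1)).subgroupOf (Kreknin.gam ↥W (kc p))) (δ x) =
      ε (QuotientGroup.mk' _ x) := fun x => rfl
  have hfac := card_le_of_exponent ε
    (pow_eq_one_of_surjective (QuotientGroup.mk'_surjective _) δ ε hε (restr_pow β _ hcinv hβp)) (p ^ n)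
    ((nfix_le_of_surjective (QuotientGroup.mk'_surjective _) δ ε hε).trans ((nfix_restr β _ hcinv).trans hβfix)) N
    (fun v => by
      obtain ⟨x, rfl⟩ := QuotientGroup.mk_surjective v
      rw [← QuotientGroup.mk_pow]
      exact (QuotientGroup.eq_one_iff _).2 (mem_subgroupOf.2 (by simpa using hpow x x.2)))
  -- the section in the whole group
  set X := (Kreknin.gam ↥W (kc p)).map W.subtype with hX
  set Y := (Kreknin.gam ↥W (kc p + 1)).map W.subtype with hY
  haveI : X.Normal := ConjAct.normal_of_characteristic_of_normal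
  have hXinv : X.map α.toMonoidHom = X := by
    conv_rhs => rw [hX, ← hcinv, Subgroup.map_map]
    rw [hX, Subgroup.map_map]; rfl
  have hXp : IsPGroup p X := hG.to_subgroup X
  have hcardXY : Nat.card X ≤ ((p ^ n) ^ p) ^ N * Nat.card Y := by
    rw [hX, hY, Subgroup.card_map_of_injective W.subtype_injective, Subgroup.card_map_of_injective W.subtype_injective,
      Subgroup.card_eq_card_quotient_mul_card_subgroup ((Kreknin.gam ↥W (kc p + 1)).subgroupOf (Kreknin.gam ↥W (kc p))),
      Nat.card_congr (Subgroup.subgroupOfEquivOfLe (Kreknin.gam_antitone (kc p).le_succ)).toEquiv]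
    exact Nat.mul_le_mul_right _ hfac
  haveI := frIter_normal X s
  have hsub : ⁅X, W⁆ ≤ frIter X s :=
    commutator_derived_le X (frIter X s) (frIter_le X s) B (card_le_frIter α hα (p ^ n) hfix X hXp hXinv s)
  have hYeq : Y = ⁅X, W⁆ := by
    rw [hY, hX, Kreknin.gam_succ, Subgroup.map_commutator, ← MonoidHom.range_eq_map, Subgroup.range_subtype]
  have hYbot : Y = ⊥ := by
    rw [eq_bot_iff]
    refine (hYeq.le.trans hsub).trans (le_of_eq ?_)
    by_contra hne
    have h1 := (frIter_card_le X hXp s hne).trans (hcardXY.trans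
      (Nat.mul_le_mul_left _ (Subgroup.card_le_of_le (hYeq.le.trans hsub))))
    have h2 := Nat.le_of_mul_le_mul_right h1 Nat.card_pos
    rw [← pow_mul, ← pow_mul, Nat.pow_le_pow_iff_right hp.out.one_lt, hs, mul_assoc n p N] at h2
    omega
  have hgam : Kreknin.gam ↥W (kc p + 1) = ⊥ := (map_eq_bot_iff_of_injective _ W.subtype_injective).1 hYbot
  show derivedSeries G (B ^ B + (kc p + 1)) = ⊥
  rw [derived_add, ← hW, Subgroup.map_eq_bot_iff_of_injective _ W.subtype_injective]
  exact le_bot_iff.1 ((Subgroup.derived_le_lower_central (kc p + 1)).trans hgam.le)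

/-- The bound. -/
def lBound (p n : ℕ) : ℕ :=
  let B := (p ^ n) ^ p
  B ^ B + pBound p n + kc p

theorem derived_solvable [hsol : Group.IsSolvable G] (α : MulAut G) (hα : α ^ p = 1) (n : ℕ) (hfix : nfix α = p ^ n) :
    derivedSeries G (lBound p n) = ⊥ := by
  haveI hNn := Cfsg.pPrimeCore_normal p G
  set N := Cfsg.pPrimeCore p G with hN
  have hNinv : N.map α.toMonoidHom = N := by
    refine le_antisymm (Components.pPrimeCore_map_le p α.toMonoidHom α.surjective) fun x hx => ?_
    exact ⟨α.symm x, Components.pPrimeCore_map_le p α.symm.toMonoidHom α.symm.surjective (mem_map_of_mem _ hx),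
      α.apply_symm_apply x⟩
  -- the p'-part
  have hfpf : ∀ g : ↥N, restr α N hNinv g = g → g = 1 := by
    intro g hg
    have hg' : (g : G) ∈ fixSub α := (restr_coe α N hNinv g).symm.trans (congrArg Subtype.val hg)
    have h1 : orderOf (g : G) ∣ p ^ n := by
      rw [← hfix, ← card_fixSub, ← Nat.card_zpowers]
      exact Subgroup.card_dvd_of_le (zpowers_le.2 hg')
    have h2 : orderOf (g : G) ∣ Nat.card ↥N := by rw [orderOf_coe]; exact orderOf_dvd_natCard g
    have h3 := Nat.dvd_gcd h2 h1
    rw [((Components.pPrimeCore_coprime (G := G) p).pow_right n).gcd_eq_one, Nat.dvd_one, orderOf_eq_one_iff] at h3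
    exact Subtype.ext h3
  have hNd : derivedSeries ↥N (kc p) = ⊥ :=
    le_bot_iff.1 ((Subgroup.derived_le_lower_central (kc p)).trans (Kreknin.gam_eq_bot (restr α N hNinv)
      (restr_pow α N hNinv hα) hfpf (kc p) fun C hC d => Kreknin.iterBr_eq_bot_kreknin hC d).le)
  -- the quotient
  let β : MulAut (G ⧸ N) := QuotientGroup.congr N N α hNinv
  have hβi : ∀ g, QuotientGroup.mk' N (α g) = β (QuotientGroup.mk' N g) := fun g => rfl
  have hβ : β ^ p = 1 := pow_eq_one_of_surjective (QuotientGroup.mk'_surjective N) α β hβi hα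
  have hβfix : nfix β ≤ p ^ n := (nfix_le_of_surjective (QuotientGroup.mk'_surjective N) α β hβi).trans hfix.le
  haveI : Group.IsSolvable (G ⧸ N) := Group.isSolvable_of_surjective (QuotientGroup.mk'_surjective N)
  set Q := Cfsg.pCore p (G ⧸ N) with hQ
  haveI : Q.Normal := Cfsg.pCore_normal p (G ⧸ N)
  have hQp : IsPGroup p ↥Q := Components.pCore_isPGroup p
  have hQinv : Q.map β.toMonoidHom = Q := by
    haveI := Cfsg.pCore_normal p (G ⧸ N)
    refine le_antisymm ?_ ?_
    · haveI : (Q.map β.toMonoidHom).Normal := Subgroup.Normal.map inferInstance _ β.surjective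
      exact Components.le_pCore (hQp.map _)
    · intro x hx
      refine ⟨β.symm x, ?_, β.apply_symm_apply x⟩
      exact Components.pCore_map_le p β.symm.toMonoidHom β.symm.surjective (mem_map_of_mem β.symm.toMonoidHom hx)
  have hQd : derivedSeries ↥Q (pBound p n) = ⊥ :=
    derived_pGroup hQp (restr β Q hQinv) (restr_pow β Q hQinv hβ) n ((nfix_restr β Q hQinv).trans hβfix)
  haveI := fr_normal Q
  have hcomm := commutator_derived_le Q (fr Q) (Subgroup.map_subtype_le _) ((p ^ n) ^ p)
    (card_le_fr β hβ (p ^ n) hβfix Q hQp hQinv)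
  set A := ((p ^ n) ^ p) ^ ((p ^ n) ^ p) with hA
  have hDQ : derivedSeries (G ⧸ N) A ≤ Q := by
    intro g hg
    refine HallHigman.mem_pCore_of_trivial_on_frattini (HallHigman.isPSolvable_of_isSolvable p)
      (Components.pPrimeCore_quotient p) fun a => ?_
    obtain ⟨x, hx, hxe⟩ := hcomm (commutator_mem_commutator a.2 hg)
    have hx' := inv_mem hx
    have e : ((MulAut.conjNormal (H := Q) g a) * a⁻¹ : ↥Q) = x⁻¹ := by
      refine Subtype.ext ?_
      rw [Subgroup.coe_mul, MulAut.conjNormal_apply, Subgroup.coe_inv, Subgroup.coe_inv, ← Subgroup.coe_subtype, hxe,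
        commutatorElement_def]
      simp [mul_assoc]
    rw [e]
    exact hx'
  have hGd : derivedSeries (G ⧸ N) (A + pBound p n) = ⊥ :=
    le_bot_iff.1 ((derived_le_of_le hDQ _).trans (by rw [hQd, Subgroup.map_bot]))
  have hle : derivedSeries G (A + pBound p n) ≤ N := by
    intro g hg
    have := map_derived (QuotientGroup.mk' N) _ (mem_map_of_mem _ hg)
    rw [hGd, mem_bot] at this
    exact (QuotientGroup.eq_one_iff g).1 this
  exact le_bot_iff.1 ((derived_le_of_le hle (kc p)).trans (by rw [hNd, Subgroup.map_bot]))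

end Cfsg.Agent.Lib.LocalChar.AlperinFixed
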