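import Cfsg.Agent.Lib.Kreknin.Bound

/-!
The Lie ring argument for an automorphism of prime order whose fixed points in the factors of the lower
central series are killed by `q`: a power bounded in terms of `p`, `q` and `c` maps `γ_c` into `γ_{c+1}`.
-/

set_option autoImplicit false

namespace Cfsg.Agent.Lib.LocalChar.AlperinFixed

open Cfsg.Agent.Lib.Kreknin
open scoped TensorProduct commutatorElement
open Polynomial

universe u

attribute [-instance] LieAlgebra.ExtendScalars.instBracketTensorProduct

variable {p : ℕ} [hp : Fact p.Prime] {G : Type u} [Group G]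

omit hp in
theorem assoc_fixed_torsion (α : MulAut G) (q : ℕ)
    (hq : ∀ k, ∀ g ∈ gam G k, g⁻¹ * α g ∈ gam G (k + 1) → g ^ q ∈ gam G (k + 1))
    (x : Assoc G) (hx : assocMap α x = x) : q • x = 0 := by
  classical
  have hcomp : ∀ (k : ℕ) (y : Assoc G),
      (assocMap α y) k = (assocMap α (DirectSum.of (fun k => Additive (Factor G k)) k (y k))) k := by
    intro k y
    induction y using assoc_induction with
    | h0 => simp
    | hadd a b ha hb => simp [ha, hb]
    | hcls j g hg =>
      rw [assocMap_cls α hg]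
      by_cases hjk : j = k
      · subst hjk
        rw [show cls j g = cls j ((⟨g, hg⟩ : gam G j) : G) from rfl, cls_of_mem, DirectSum.of_eq_same,
          ← cls_of_mem, assocMap_cls α hg]
      · rw [show cls j g = cls j ((⟨g, hg⟩ : gam G j) : G) from rfl, cls_of_mem,
          show cls j (α g) = cls j ((⟨α g, apply_mem_gam α hg⟩ : gam G j) : G) from rfl, cls_of_mem,
          DirectSum.of_eq_of_ne _ _ _ (Ne.symm hjk), DirectSum.of_eq_of_ne _ _ _ (Ne.symm hjk)]
        simp
  refine DFinsupp.ext fun k => ?_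
  show (q • x) k = 0
  obtain ⟨g, hg⟩ := QuotientGroup.mk_surjective (Additive.toMul (x k))
  have hxk : x k = Additive.ofMul (g : Factor G k) := by rw [hg]; rfl
  have h1 := hcomp k x
  rw [hx, hxk, ← cls_of_mem, assocMap_cls α g.2,
    show cls k (α (g : G)) = cls k ((⟨α g, apply_mem_gam α g.2⟩ : gam G k) : G) from rfl, cls_of_mem,
    DirectSum.of_eq_same] at h1
  have h2 : (g : G)⁻¹ * α g ∈ gam G (k + 1) :=
    Subgroup.mem_subgroupOf.1 (QuotientGroup.eq.1 (Additive.ofMul.injective h1))
  show q • (x k) = 0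
  rw [hxk, ← ofMul_pow, ← QuotientGroup.mk_pow, (QuotientGroup.eq_one_iff _).2 (Subgroup.mem_subgroupOf.2 ?_),
    ofMul_one]
  simpa using hq k g g.2 h2

theorem ext_fixed_torsion (α : MulAut G) (q : ℕ)
    (hq : ∀ k, ∀ g ∈ gam G k, g⁻¹ * α g ∈ gam G (k + 1) → g ^ q ∈ gam G (k + 1))
    (x : Ext p G) (hx : extMap p α x = x) : q • x = 0 := by
  classical
  let b := (AdjoinRoot.powerBasis' (cyclotomic.monic p ℤ)).basis
  let e := TensorProduct.equivFinsuppOfBasisLeft (N := Assoc G) b
  have hnat : ∀ y : Ext p G, ∀ i, e (extMap p α y) i = assocMap α (e y i) := by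
    intro y i
    induction y using TensorProduct.induction_on with
    | zero => simp
    | add u v hu hv => simp [hu, hv]
    | tmul r a => simp [e, extMap_tmul, TensorProduct.equivFinsuppOfBasisLeft_apply_tmul_apply, map_zsmul]
  apply e.injective
  rw [map_zero, map_nsmul]
  refine Finsupp.ext fun i => ?_
  rw [Finsupp.smul_apply, Finsupp.zero_apply]
  exact assoc_fixed_torsion α q hq _ (by rw [← hnat, hx])

theorem extMap_pow (α : MulAut G) (hα : α ^ p = 1) (y : Ext p G) : (extMap p α ^ p) y = y := by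
  have hit : ∀ (i : ℕ) (r : Rt p) (k : ℕ) (g : G), g ∈ gam G k →
      (extMap p α ^ i) (r ⊗ₜ cls k g) = r ⊗ₜ[ℤ] cls k ((α ^ i) g) := by
    intro i
    induction i with
    | zero => intro r k g _; rfl
    | succ i ih =>
      intro r k g hg
      rw [pow_succ', Module.End.mul_apply, ih r k g hg, extMap_tmul, assocMap_cls α (apply_mem_gam _ hg), pow_succ']
      rfl
  induction y using TensorProduct.induction_on with
  | zero => rw [map_zero]
  | add a b ha hb => rw [map_add, ha, hb]
  | tmul r x =>
    induction x using assoc_induction with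
    | h0 => rw [TensorProduct.tmul_zero, map_zero]
    | hadd a b ha hb => rw [TensorProduct.tmul_add, map_add, ha, hb]
    | hcls k g hg => rw [hit p r k g hg, hα]; rfl

/-- The main estimate. -/
theorem pow_gam_mem (α : MulAut G) (hα : α ^ p = 1) (q : ℕ)
    (hq : ∀ k, ∀ g ∈ gam G k, g⁻¹ * α g ∈ gam G (k + 1) → g ^ q ∈ gam G (k + 1)) (c : ℕ)
    (hbound : ∀ C : ZMod p → AddSubgroup (Ext p G), IsGr C → ∀ d, iterBr C C c d = ⊥) :
    ∀ g ∈ gam G c, g ^ ((p * q) ^ (c + 1)) ∈ gam G (c + 1) := by
  classical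
  let C : ZMod p → AddSubgroup (Ext p G) := fun d => (eig p α d).map (nsmulAddMonoidHom q)
  have hgr : IsGr C := by
    refine ⟨?_, ?_⟩
    · rintro a b _ ⟨x, hx, rfl⟩ _ ⟨y, hy, rfl⟩
      simp only [nsmulAddMonoidHom_apply]
      refine ⟨q • ⁅x, y⁆, ?_, by simp only [nsmulAddMonoidHom_apply]; rw [nsmul_lie, lie_nsmul]⟩
      refine AddSubgroup.nsmul_mem _ ?_ _
      rw [SetLike.mem_coe, mem_eig] at hx hy
      rw [mem_eig, extMap_lie, hx, hy]
      refine (smul_lie (R := Rt p) (om a) x (om b • y)).trans ((congrArg (om a • ·) (lie_smul (R := Rt p) (om b) x y)).trans ?_)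
      rw [smul_smul, om_add]
    · rw [eq_bot_iff]
      rintro _ ⟨x, hx, rfl⟩
      rw [SetLike.mem_coe, mem_eig, om_zero, one_smul] at hx
      exact ext_fixed_torsion α q hq x hx
  set Φ := extMap p α with hΦ
  have hspan : ∀ y : Ext p G, (p * q) • y ∈ ⨆ d, C d := by
    intro y
    let e : ZMod p → Ext p G := fun d => ∑ i : ZMod p, om (-(d * i)) • (Φ ^ i.val) y
    have he : ∀ d, e d ∈ eig p α d := by
      intro d
      rw [mem_eig, map_sum, Finset.smul_sum]
      refine Fintype.sum_equiv (Equiv.addRight (1 : ZMod p)) _ _ fun i => ?_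
      rw [map_smul, Equiv.coe_addRight, smul_smul, ← om_add, show d + -(d * (i + 1)) = -(d * i) by ring]
      congr 1
      show Φ ((Φ ^ i.val) y) = (Φ ^ (i + 1).val) y
      rw [← Module.End.mul_apply, ← pow_succ', ZMod.val_add, ZMod.val_one]
      conv_lhs => rw [← Nat.mod_add_div (i.val + 1) p, pow_add, Module.End.mul_apply]
      congr 1
      generalize (i.val + 1) / p = t
      induction t with
      | zero => rfl
      | succ t iht => rw [Nat.mul_succ, pow_add, Module.End.mul_apply, extMap_pow α hα, iht]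
    have hsume : ∑ d, e d = (p : ℕ) • y := by
      simp only [e]
      rw [Finset.sum_comm, Finset.sum_eq_single (0 : ZMod p)]
      · simp only [mul_zero, neg_zero, om_zero, one_smul, ZMod.val_zero, pow_zero, Module.End.one_apply,
          Finset.sum_const, Finset.card_univ, ZMod.card]
      · intro i _ hi
        rw [← Finset.sum_smul]
        convert zero_smul (Rt p) ((Φ ^ i.val) y) using 2
        rw [← sum_om_mul (c := -i) (neg_ne_zero.mpr hi)]
        exact Finset.sum_congr rfl fun d _ => congrArg om (by ring)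
      · simp
    rw [mul_comm, mul_nsmul', ← hsume, Finset.smul_sum]
    exact sum_mem fun d _ => AddSubgroup.mem_iSup_of_mem d ⟨e d, he d, rfl⟩
  have hreach : ∀ m : ℕ, ∀ g ∈ gam G m,
      ((p * q) ^ (m + 1)) • ((1 : Rt p) ⊗ₜ[ℤ] cls m g : Ext p G) ∈ ⨆ d, iterBr C C m d := by
    intro m
    induction m with
    | zero => intro g _; rw [zero_add, pow_one]; exact hspan _
    | succ m ihm =>
      intro g hg
      suffices h : g ∈ gam G (m + 1) ∧
          ((p * q) ^ (m + 1 + 1)) • ((1 : Rt p) ⊗ₜ[ℤ] cls (m + 1) g : Ext p G) ∈ ⨆ d, iterBr C C (m + 1) d from h.2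
      rw [gam_succ, Subgroup.commutator_def] at hg
      induction hg using Subgroup.closure_induction with
      | mem z hz =>
        obtain ⟨a, ha, b, -, rfl⟩ := hz
        have hb0 : b ∈ gam G 0 := Subgroup.mem_top b
        refine ⟨comm_mem_succ ha b, ?_⟩
        have hl := lie_cls ha hb0
        rw [show m + 0 + 1 = m + 1 by omega] at hl
        rw [← hl, ← one_mul (1 : Rt p), ← ext_bracket_tmul, pow_succ', mul_nsmul', ← nsmul_lie, ← lie_nsmul]
        have hmem : ∀ x ∈ ⨆ d, iterBr C C m d, ∀ y ∈ ⨆ d, C d, ⁅x, y⁆ ∈ ⨆ d, iterBr C C (m + 1) d := by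
          intro x hx y hy
          refine AddSubgroup.iSup_induction (iterBr C C m) (C := fun x => ⁅x, y⁆ ∈ ⨆ d, iterBr C C (m + 1) d) hx
            (fun d x hx => ?_) ?_ ?_
          · refine AddSubgroup.iSup_induction C (C := fun y => ⁅x, y⁆ ∈ ⨆ d, iterBr C C (m + 1) d) hy
              (fun e y hy => AddSubgroup.mem_iSup_of_mem (d + e) (lie_mem_br hx hy)) ?_ ?_
            · rw [lie_zero]; exact zero_mem _
            · intro u v ihu ihv; rw [lie_add]; exact add_mem ihu ihv
          · rw [zero_lie]; exact zero_mem _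
          · intro u v ihu ihv; rw [add_lie]; exact add_mem ihu ihv
        exact hmem _ (ihm a ha) _ (hspan _)
      | one => refine ⟨one_mem _, ?_⟩; rw [cls_one, TensorProduct.tmul_zero, smul_zero]; exact zero_mem _
      | mul a b _ _ iha ihb =>
        refine ⟨mul_mem iha.1 ihb.1, ?_⟩
        rw [cls_mul iha.1 ihb.1, TensorProduct.tmul_add, smul_add]
        exact add_mem iha.2 ihb.2
      | inv a _ iha =>
        refine ⟨inv_mem iha.1, ?_⟩
        rw [cls_inv iha.1, TensorProduct.tmul_neg, smul_neg]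
        exact neg_mem iha.2
  intro g hg
  have h1 := hreach c g hg
  simp only [hbound C hgr, iSup_bot, AddSubgroup.mem_bot] at h1
  rw [← TensorProduct.tmul_smul, ← cls_pow hg] at h1
  exact (cls_eq_zero_iff (pow_mem hg _)).mp (one_tmul_injective (p := p) (h1.trans (TensorProduct.tmul_zero _ _).symm))

end Cfsg.Agent.Lib.LocalChar.AlperinFixed
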