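import Mathlib
import Cfsg.Agent.Lib.LocalChar.Amalgam
import Cfsg.Agent.Lib.LocalChar.FStar
import Cfsg.Prelude.Def_LocalStructure

/-! The iterated closures `V_λ^{(n)}` of an amalgam pair. -/

set_option autoImplicit false
set_option linter.unusedSectionVars false

open scoped commutatorElement Pointwise

namespace Cfsg.Agent.Lib.LocalChar.Amalgam

open Subgroup Cfsg Cfsg.Agent.Lib.LocalChar

variable {X : Type*} [Group X] {M₁ M₂ : Subgroup X} {p : ℕ} [hp : Fact p.Prime]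

/-- `O^p(L_δ)`. -/
abbrev vertexR (p : ℕ) (δ : CosetVertex M₁ M₂) : Subgroup X :=
  resOf p (Cfsg.pElementClosure p (MulAction.stabilizer X δ))

theorem vertexR_le (δ : CosetVertex M₁ M₂) : vertexR p δ ≤ MulAction.stabilizer X δ :=
  (resOf_le _).trans (pElementClosure_le _)

theorem spe_normalizer_le (h : Cfsg.IsSpeAmalgamPair p M₁ M₂) {δ μ : CosetVertex M₁ M₂} (hadj : (Γ M₁ M₂).Adj δ μ)
    (S : Sylow p ↥(Cfsg.edgeStabilizer δ μ)) :
    MulAction.stabilizer X δ ⊓ normalizer (((S : Subgroup _).map (Cfsg.edgeStabilizer δ μ).subtype : Subgroup X) : Set X) ≤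
      Cfsg.edgeStabilizer δ μ := by
  have := h.1.2.1
  have := finite_edge h.1 δ μ
  haveI : Finite ↥(M₁ ⊓ M₂) :=
    Finite.of_injective (Subgroup.inclusion inf_le_left) (Subgroup.inclusion_injective inf_le_left)
  have main : ∀ x : X, Cfsg.edgeStabilizer δ μ = cj x (M₁ ⊓ M₂) →
      (MulAction.stabilizer X δ = cj x M₁ ∨ MulAction.stabilizer X δ = cj x M₂) →
      MulAction.stabilizer X δ ⊓ normalizer (((S : Subgroup _).map (Cfsg.edgeStabilizer δ μ).subtype : Subgroup X) : Set X) ≤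
        Cfsg.edgeStabilizer δ μ := by
    intro x hE hδ
    set T := (S : Subgroup _).map (Cfsg.edgeStabilizer δ μ).subtype
    have hTle : T ≤ cj x (M₁ ⊓ M₂) := (map_subtype_le _).trans hE.le
    have hT0 : cj x⁻¹ T ≤ M₁ ⊓ M₂ := by
      have h1 := cj_mono (g := x⁻¹) hTle
      rwa [cj_cj, inv_mul_cancel, cj_one] at h1
    have hS0 : IsSylowIn p (cj x⁻¹ T) (M₁ ⊓ M₂) := by
      refine ⟨hT0, isPGroup_cj (S.isPGroup'.map _), fun hd => S.not_dvd_index ?_⟩
      have h2 : (cj x⁻¹ T).relIndex (M₁ ⊓ M₂) = T.relIndex (cj x (M₁ ⊓ M₂)) := by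
        conv_rhs => rw [show T = cj x (cj x⁻¹ T) by rw [cj_cj, mul_inv_cancel, cj_one]]
        exact (relIndex_map_map_of_injective _ _ (MulAut.conj x).injective).symm
      rw [h2, ← hE] at hd
      rwa [relIndex, show T.subgroupOf (Cfsg.edgeStabilizer δ μ) = (S : Subgroup _) from
        comap_map_eq_self_of_injective Subtype.val_injective _] at hd
    obtain ⟨he, hle⟩ := h.2.1 hS0.sylow
    have hcoe : ((hS0.sylow : Subgroup _).map (M₁ ⊓ M₂).subtype) = cj x⁻¹ T := by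
      rw [hS0.sylow_coe, map_subgroupOf_eq_of_le hT0]
    rw [hcoe] at he hle
    intro g hg
    have hgn : x⁻¹ * g * x ∈ normalizer (cj x⁻¹ T : Set X) := by
      refine mem_nz_of_cj_eq ?_
      rw [cj_cj, show x⁻¹ * g * x * x⁻¹ = x⁻¹ * g by group, ← cj_cj, cj_eq_of_mem_nz hg.2]
    rw [hE, mem_cj]
    rcases hδ with hδ | hδ
    · exact hle ⟨mem_cj.1 (hδ ▸ hg.1), hgn⟩
    · exact hle (he.ge ⟨mem_cj.1 (hδ ▸ hg.1), hgn⟩)
  obtain ⟨x, ⟨h1, h2⟩ | ⟨h1, h2⟩⟩ := adj_stab hadj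
  · exact main x (by show _ ⊓ _ = _; rw [h1, h2, cj_inf]) (Or.inl h1)
  · exact main x (by show _ ⊓ _ = _; rw [h1, h2, cj_inf, inf_comm]) (Or.inr h1)

/-- `G_δ = O^p(L_δ) G_{δμ}`. -/
theorem stab_eq_sup (h : Cfsg.IsSpeAmalgamPair p M₁ M₂) {δ μ : CosetVertex M₁ M₂} (hadj : (Γ M₁ M₂).Adj δ μ) :
    vertexR p δ ⊔ Cfsg.edgeStabilizer δ μ = MulAction.stabilizer X δ := by
  set G := MulAction.stabilizer X δ with hG
  set E := Cfsg.edgeStabilizer δ μ
  haveI := finite_stab h.1 δ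
  haveI := finite_edge h.1 δ μ
  refine le_antisymm (sup_le (vertexR_le δ) inf_le_left) ?_
  obtain ⟨S⟩ : Nonempty (Sylow p ↥E) := inferInstance
  obtain ⟨P, hP⟩ := sylow_edge h.1 hadj S
  set T := (S : Subgroup _).map E.subtype with hT
  set L := Cfsg.pElementClosure p G
  have hTE : T ≤ E := map_subtype_le _
  have hTG : T ≤ G := hTE.trans inf_le_left
  have hTp : IsPGroup p T := S.isPGroup'.map _
  have hTL : T ≤ L := mem_pElementClosure hTp hTG
  -- work inside the finite group `G`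
  have hLG : L ≤ G := pElementClosure_le G
  have hP' : (P : Subgroup ↥G) = T.subgroupOf G := by
    rw [← hP, subgroupOf, comap_map_eq_self_of_injective Subtype.val_injective]
  have hsyl : IsSylowIn p (T.subgroupOf G) (L.subgroupOf G) := by
    refine ⟨comap_mono hTL, isPGroup_subgroupOf hTp, fun hd => P.not_dvd_index ?_⟩
    rw [hP']
    exact hd.trans (relIndex_dvd_index_of_le (comap_mono hTL))
  have hfr := hsyl.frattini' (H := (⊤ : Subgroup ↥G)) le_top
    (le_top.trans (normalizer_eq_top_iff.2 (normal_subgroupOf (le_nz_pElementClosure G))).ge)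
  haveI : Finite ↥L := Finite.of_injective (Subgroup.inclusion hLG) (Subgroup.inclusion_injective hLG)
  have hLle : L ≤ vertexR p δ ⊔ E := by
    have hsyl2 : IsSylowIn p ((T.subgroupOf G).subgroupOf (L.subgroupOf G)) ⊤ := by
      refine ⟨le_top, isPGroup_subgroupOf hsyl.2.1, ?_⟩
      rw [relIndex_top_right]; exact hsyl.2.2
    intro x hx
    have hres := pow_mem_resOf (p := p) (H := (⊤ : Subgroup ↥L)) (mem_top (⟨x, hx⟩ : ↥L))
    have hTL' : IsSylowIn p (T.subgroupOf L) (⊤ : Subgroup ↥L) := by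
      refine ⟨le_top, isPGroup_subgroupOf hTp, fun hd => hsyl.2.2 ?_⟩
      rw [relIndex_subgroupOf hLG]
      rw [relIndex_top_right] at hd
      exact hd
    have h1 : (⟨x, hx⟩ : ↥L) ∈ resOf p (⊤ : Subgroup ↥L) ⊔ T.subgroupOf L := by rw [hTL'.resOf_sup]; exact mem_top _
    have h2 := mem_map_of_mem L.subtype h1
    rw [Subgroup.map_sup, map_subgroupOf_eq_of_le hTL, resOf_top] at h2
    exact sup_le_sup le_rfl hTE h2
  intro g hg
  have hg' : (⟨g, hg⟩ : ↥G) ∈ L.subgroupOf G ⊔ (⊤ ⊓ normalizer ((T.subgroupOf G : Subgroup ↥G) : Set ↥G)) := by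
    rw [hfr]; exact mem_top _
  have h2 := mem_map_of_mem G.subtype hg'
  rw [Subgroup.map_sup, map_subgroupOf_eq_of_le hLG] at h2
  refine sup_le hLle ?_ h2
  rintro _ ⟨n, hn, rfl⟩
  refine mem_sup_right (spe_normalizer_le h hadj S ⟨n.2, ?_⟩)
  refine mem_normalizer_iff.2 fun y => ⟨fun hy => ?_, fun hy => ?_⟩
  · exact (mem_normalizer_iff.1 hn.2 ⟨y, hTG hy⟩).1 hy
  · have hyG : y ∈ G := by
      simpa [mul_assoc] using mul_mem (mul_mem (inv_mem n.2) (hTG hy)) n.2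
    exact (mem_normalizer_iff.1 hn.2 ⟨y, hyG⟩).2 hy

theorem dist_smul (g : X) (a b : CosetVertex M₁ M₂) (hgen : M₁ ⊔ M₂ = ⊤) :
    (Γ M₁ M₂).dist (g • a) (g • b) = (Γ M₁ M₂).dist a b := by
  have key : ∀ (g : X) a b, (Γ M₁ M₂).dist (g • a) (g • b) ≤ (Γ M₁ M₂).dist a b := by
    intro g a b
    obtain ⟨w, hw⟩ := (connected hgen).exists_walk_length_eq_dist a b
    let φ : Γ M₁ M₂ →g Γ M₁ M₂ := ⟨fun v => g • v, fun h => adj_smul g h⟩
    exact (SimpleGraph.dist_le (w.map φ)).trans (by rw [SimpleGraph.Walk.length_map, hw])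
  exact le_antisymm (key g a b) (by simpa using key g⁻¹ (g • a) (g • b))

theorem vertexZ_smul_le (g : X) (δ : CosetVertex M₁ M₂) [Finite ↥(MulAction.stabilizer X δ)] :
    cj g (Cfsg.vertexZ p δ) ≤ Cfsg.vertexZ p (g • δ) := by
  unfold Cfsg.vertexZ Cfsg.sylowCenterClosure
  rw [cj, Subgroup.map_iSup]
  refine iSup_le fun S => ?_
  set P := (S : Subgroup _).map (MulAction.stabilizer X δ).subtype
  have e := stab_smul g δ
  have hle : cj g P ≤ MulAction.stabilizer X (g • δ) := by rw [e]; exact cj_mono (map_subtype_le _)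
  have hfin : Finite ↥(MulAction.stabilizer X (g • δ)) := by
    rw [e]; exact Finite.of_equiv _ ((MulAction.stabilizer X δ).equivMapOfInjective _ (MulAut.conj g).injective).toEquiv
  have hs : IsSylowIn p (cj g P) (MulAction.stabilizer X (g • δ)) := by
    refine ⟨hle, isPGroup_cj (S.isPGroup'.map _), fun hd => S.not_dvd_index ?_⟩
    rw [e, cj, cj, relIndex_map_map_of_injective _ _ (MulAut.conj g).injective] at hd
    rwa [relIndex, show P.subgroupOf (MulAction.stabilizer X δ) = (S : Subgroup ↥(MulAction.stabilizer X δ)) from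
      comap_map_eq_self_of_injective (MulAction.stabilizer X δ).subtype_injective _] at hd
  refine le_trans ?_ (le_iSup _ hs.sylow)
  rw [hs.sylow_coe, map_subgroupOf_eq_of_le hle, map_le_iff_le_comap]
  refine (closure_le _).2 fun x hx => subset_closure ⟨⟨mem_map_of_mem _ hx.1.1, ?_⟩, ?_⟩
  · rintro _ ⟨t, ht, rfl⟩
    show (MulAut.conj g) t * (MulAut.conj g) x = (MulAut.conj g) x * (MulAut.conj g) t
    rw [← map_mul, ← map_mul, hx.1.2 t ht]
  · rw [← map_pow, hx.2, map_one]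

theorem vIter_smul_le (h : Cfsg.IsCharPAmalgamPair p M₁ M₂) (g : X) (n : ℕ) (δ : CosetVertex M₁ M₂) :
    cj g (Cfsg.vertexVIter p M₁ M₂ n δ) ≤ Cfsg.vertexVIter p M₁ M₂ n (g • δ) := by
  unfold Cfsg.vertexVIter
  rw [cj, Subgroup.map_iSup]
  refine iSup_le fun ν => ?_
  haveI := finite_stab h ν.1
  refine (vertexZ_smul_le g ν.1).trans ?_
  exact le_iSup (fun μ : {μ // (Γ M₁ M₂).dist (g • δ) μ ≤ n} => Cfsg.vertexZ p μ.1)
    ⟨g • ν.1, by rw [dist_smul g δ ν.1 h.1.1]; exact ν.2⟩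

theorem stab_le_nz_vIter (h : Cfsg.IsCharPAmalgamPair p M₁ M₂) (n : ℕ) (δ : CosetVertex M₁ M₂) :
    MulAction.stabilizer X δ ≤ normalizer (Cfsg.vertexVIter p M₁ M₂ n δ : Set X) := by
  refine le_nz_of_cj fun g hg => le_antisymm ?_ ?_
  · simpa [MulAction.mem_stabilizer_iff.1 hg] using vIter_smul_le h g n δ
  · have h1 := cj_mono (g := g) (vIter_smul_le (p := p) h g⁻¹ n δ)
    rwa [cj_cj, mul_inv_cancel, cj_one, MulAction.mem_stabilizer_iff.1 (inv_mem hg)] at h1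

theorem vertexZ_le_vIter {n : ℕ} {δ μ : CosetVertex M₁ M₂} (hd : (Γ M₁ M₂).dist δ μ ≤ n) :
    Cfsg.vertexZ p μ ≤ Cfsg.vertexVIter p M₁ M₂ n δ :=
  le_iSup (fun μ : {μ // (Γ M₁ M₂).dist δ μ ≤ n} => Cfsg.vertexZ p μ.1) ⟨μ, hd⟩

theorem vIter_mono_adj (hgen : M₁ ⊔ M₂ = ⊤) {n m : ℕ} {δ μ : CosetVertex M₁ M₂} (hadj : (Γ M₁ M₂).Adj δ μ)
    (hnm : n + 1 ≤ m) : Cfsg.vertexVIter p M₁ M₂ n μ ≤ Cfsg.vertexVIter p M₁ M₂ m δ := by
  refine iSup_le fun ν => vertexZ_le_vIter ?_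
  have h1 := (connected hgen).dist_triangle (u := δ) (v := μ) (w := ν.1)
  have h2 := SimpleGraph.dist_le (SimpleGraph.Walk.cons hadj SimpleGraph.Walk.nil)
  simp only [SimpleGraph.Walk.length_cons, SimpleGraph.Walk.length_nil] at h2
  have h3 : (Γ M₁ M₂).dist μ ν.1 ≤ n := ν.2
  have h4 : (Cfsg.cosetGraph M₁ M₂).dist δ ν.1 ≤ (Γ M₁ M₂).dist δ μ + (Γ M₁ M₂).dist μ ν.1 := h1
  omega

theorem vertexZ_ne_bot (h : Cfsg.IsCharPAmalgamPair p M₁ M₂) (δ : CosetVertex M₁ M₂) : Cfsg.vertexZ p δ ≠ ⊥ := by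
  haveI := finite_stab h δ
  obtain ⟨S⟩ : Nonempty (Sylow p ↥(MulAction.stabilizer X δ)) := inferInstance
  have hd : p ∣ Nat.card ↥(MulAction.stabilizer X δ) := by
    rcases vertex_cases δ with ⟨x, rfl⟩ | ⟨x, rfl⟩
    · rw [stab_vl, card_cj]; exact h.2.2.2.1
    · rw [stab_vr, card_cj]; exact h.2.2.2.2.1
  have hS1 : (S : Subgroup ↥(MulAction.stabilizer X δ)) ≠ ⊥ := S.ne_bot_of_dvd_card hd
  haveI : Nontrivial ↥(S : Subgroup ↥(MulAction.stabilizer X δ)) := (Subgroup.nontrivial_iff_ne_bot _).2 hS1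
  obtain ⟨z, hz⟩ := exists_prime_orderOf_dvd_card' p
    (show p ∣ Nat.card ↥(center ↥(S : Subgroup ↥(MulAction.stabilizer X δ))) from
      (S.isPGroup'.to_subgroup _).card_eq_or_dvd.resolve_left fun e => by
        haveI := S.isPGroup'.center_nontrivial
        exact (Finite.one_lt_card_iff_nontrivial.2 inferInstance).ne' e)
  intro hbot
  have : ((z.1.1 : ↥(MulAction.stabilizer X δ)) : X) ∈ Cfsg.vertexZ p δ := by
    refine Subgroup.mem_iSup_of_mem S (subset_closure ⟨⟨mem_map_of_mem _ z.1.2, ?_⟩, ?_⟩)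
    · rintro _ ⟨t, ht, rfl⟩
      exact congrArg (fun w : ↥(S : Subgroup ↥(MulAction.stabilizer X δ)) => ((w : ↥(MulAction.stabilizer X δ)) : X)) (mem_center_iff.1 z.2 ⟨t, ht⟩)
    · have := pow_orderOf_eq_one z
      rw [hz] at this
      exact congrArg (fun w : ↥(center ↥(S : Subgroup ↥(MulAction.stabilizer X δ))) => ((w.1.1 : ↥(MulAction.stabilizer X δ)) : X)) this
  rw [hbot, mem_bot] at this
  have h1 : z = 1 := Subtype.ext (Subtype.ext (Subtype.ext this))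
  rw [h1, orderOf_one] at hz
  exact hp.out.one_lt.ne hz

theorem vertexZ_central_Q (h : Cfsg.IsCharPAmalgamPair p M₁ M₂) (δ : CosetVertex M₁ M₂) :
    ⁅Cfsg.vertexZ p δ, Cfsg.vertexQ p δ⁆ = ⊥ := by
  haveI := finite_stab h δ
  rw [commutator_eq_bot_iff_le_centralizer]
  refine iSup_le fun S => (closure_le _).2 fun x hx => mem_centralizer_iff.2 fun q hq => ?_
  exact hx.1.2 q (map_mono (pCore_le_sylow S) hq)

/-- A neighbour's closure normalised by `O^p(L_δ)` contradicts faithfulness. -/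
theorem not_normalized (h : Cfsg.IsSpeAmalgamPair p M₁ M₂) {δ μ : CosetVertex M₁ M₂} (hadj : (Γ M₁ M₂).Adj δ μ)
    {m n : ℕ} (hmn : m + 1 ≤ n) (hVQ : Cfsg.vertexVIter p M₁ M₂ n δ ≤ Cfsg.vertexQ p δ) :
    ¬ vertexR p δ ≤ normalizer (Cfsg.vertexVIter p M₁ M₂ m μ : Set X) := by
  intro hR
  set U := Cfsg.vertexVIter p M₁ M₂ m μ
  have hUμ : MulAction.stabilizer X μ ≤ normalizer (U : Set X) := stab_le_nz_vIter h.1 m μ
  have hUδ : MulAction.stabilizer X δ ≤ normalizer (U : Set X) := by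
    rw [← stab_eq_sup h hadj]
    exact sup_le hR (inf_le_right.trans hUμ)
  have hUE : U ≤ MulAction.stabilizer X δ ⊓ MulAction.stabilizer X μ :=
    (vIter_mono_adj h.1.1.1 hadj hmn).trans (hVQ.trans
      ((vertexQ_le_kernel h.1 δ).trans (le_inf (kernel_le_stab δ) (kernel_le_of_adj hadj))))
  have hb := eq_bot_of_normalized h.1.1 hadj hUE hUδ hUμ
  exact vertexZ_ne_bot h.1 μ (eq_bot_iff.2 ((vertexZ_le_vIter (by simp)).trans hb.le))

end Cfsg.Agent.Lib.LocalChar.Amalgam
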