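import Cfsg.Agent.Lib.LocalChar.YL
import Cfsg.Agent.Lib.LocalChar.Subnormal
import Cfsg.Agent.Lib.Thompson.Elementary
import Cfsg.Agent.Lib.Coprime.Action
import Cfsg.Agent.S0065
import Cfsg.Prelude.Def_JComponents

/-!
Structure of a `J(T)`-component `K`: with `J = J(T)`, `Q = O₂(K)`, `S = QJ` and `W = W_K`, the group `S` is a
Sylow 2-subgroup of `KJ`, `W ≤ J`, `C_W(J)` has order 2, and `(KJ) ∩ C(W) ≤ S`.
-/

set_option autoImplicit false
set_option linter.unusedSectionVars false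
set_option linter.unusedSimpArgs false
open scoped commutatorElement
open Subgroup (centralizer normalizer zpowers)

namespace Cfsg.Agent.Lib.LocalChar.JComp

variable {G : Type*} [Group G]

local notation "𝐉" T:max => Cfsg.thompsonSubgroupOf 2 T

theorem isSylowTwoIn_iff {P H : Subgroup G} :
    Cfsg.IsSylowTwoIn P H ↔ IsSylowIn 2 P H := by
  unfold Cfsg.IsSylowTwoIn IsSylowIn
  rw [Nat.odd_iff, Nat.two_dvd_ne_zero]

/-- The elementary abelian 2-subgroups of largest order of `S`, as subgroups of `G`. -/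
def jset (S : Subgroup G) : Set (Subgroup G) :=
  {A | Cfsg.IsElementaryAbelian 2 A ∧ A ≤ S ∧
    ∀ B : Subgroup G, Cfsg.IsElementaryAbelian 2 B → B ≤ S → Nat.card B ≤ Nat.card A}

theorem subgroupOf_mem {S A : Subgroup G} (hA : A ∈ jset S) :
    A.subgroupOf S ∈ Cfsg.maxElementaryAbelianSubgroups 2 S := by
  refine ⟨Thompson.isElementaryAbelian_comap S.subtype_injective hA.1, fun B hB => ?_⟩
  rw [Nat.card_congr (Subgroup.subgroupOfEquivOfLe hA.2.1).toEquiv]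
  rw [← Subgroup.card_map_of_injective (K := B) S.subtype_injective]
  exact hA.2.2 _ (Thompson.isElementaryAbelian_map _ hB) (Subgroup.map_subtype_le B)

theorem map_mem {S : Subgroup G} {B : Subgroup S} (hB : B ∈ Cfsg.maxElementaryAbelianSubgroups 2 S) :
    B.map S.subtype ∈ jset S := by
  refine ⟨Thompson.isElementaryAbelian_map _ hB.1, Subgroup.map_subtype_le B, fun C hC hCS => ?_⟩
  rw [Subgroup.card_map_of_injective S.subtype_injective]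
  rw [← Nat.card_congr (Subgroup.subgroupOfEquivOfLe hCS).toEquiv]
  exact hB.2 _ (Thompson.isElementaryAbelian_comap S.subtype_injective hC)

theorem thompsonOf_eq (S : Subgroup G) : 𝐉 S = sSup (jset S) := by
  refine le_antisymm ?_ ?_
  · rw [Cfsg.thompsonSubgroupOf, Subgroup.map_le_iff_le_comap]
    exact sSup_le fun B hB => Subgroup.map_le_iff_le_comap.1 (le_sSup (map_mem hB))
  · refine sSup_le fun A hA => ?_
    rw [← Subgroup.map_subgroupOf_eq_of_le hA.2.1]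
    exact Subgroup.map_mono (le_sSup (subgroupOf_mem hA))

theorem jset_le {S A : Subgroup G} (hA : A ∈ jset S) : A ≤ 𝐉 S :=
  thompsonOf_eq S ▸ le_sSup hA

theorem jset_nonempty [Finite G] (S : Subgroup G) : (jset S).Nonempty :=
  Thompson.exists_maxElementary.elim fun _ hB => ⟨_, map_mem hB⟩

theorem jset_of_card {S A B : Subgroup G} (hA : A ∈ jset S) (hB : Cfsg.IsElementaryAbelian 2 B)
    (hBS : B ≤ S) (h : Nat.card A ≤ Nat.card B) : B ∈ jset S :=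
  ⟨hB, hBS, fun C hC hCS => (hA.2.2 C hC hCS).trans h⟩

theorem jset_cj {S A : Subgroup G} {g : G} (hA : A ∈ jset S) (h : cj g A ≤ S) : cj g A ∈ jset S :=
  jset_of_card hA (Thompson.isElementaryAbelian_map _ hA.1) h (card_cj g A).ge

theorem mem_of_commute [Finite G] {S A : Subgroup G} (hA : A ∈ jset S) {x : G} (hxS : x ∈ S)
    (hx : x ^ 2 = 1) (hc : ∀ a ∈ A, Commute a x) : x ∈ A := by
  have hE : Cfsg.IsElementaryAbelian 2 (A ⊔ zpowers x) := by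
    refine Thompson.isElementaryAbelian_sup hA.1 (Thompson.isElementaryAbelian_zpowers hx) ?_
    rintro a ha b ⟨k, rfl⟩
    exact ((hc a ha).zpow_right k).eq
  rw [Subgroup.eq_of_le_of_card_ge (le_sup_left : A ≤ A ⊔ zpowers x)
    (hA.2.2 _ hE (sup_le hA.2.1 (Subgroup.zpowers_le.2 hxS)))]
  exact Subgroup.mem_sup_right (Subgroup.mem_zpowers x)

theorem card_mul_relIndex' {A B : Subgroup G} (h : A ≤ B) : Nat.card A * A.relIndex B = Nat.card B := by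
  have := Subgroup.card_mul_index (A.subgroupOf B)
  rwa [Nat.card_congr (Subgroup.subgroupOfEquivOfLe h).toEquiv] at this

theorem thompsonOf_le (S : Subgroup G) : 𝐉 S ≤ S := Subgroup.map_subtype_le _

theorem nz_le_nz_thompson [Finite G] (S : Subgroup G) :
    normalizer (S : Set G) ≤ normalizer (𝐉 S : Set G) := fun g hg => by
  refine mem_nz_of_cj_le ?_
  unfold cj
  rw [Subgroup.map_le_iff_le_comap, thompsonOf_eq]
  refine sSup_le fun A hA => ?_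
  rw [← Subgroup.map_le_iff_le_comap]
  exact le_sSup (jset_cj hA ((cj_mono hA.2.1).trans (cj_eq_of_mem_nz hg).le))

section

variable {T K : Subgroup G} (hK : Cfsg.IsJComponent T K)

include hK

theorem J_le_nzK : 𝐉 T ≤ normalizer (K : Set G) := by
  have h := right_le_nz_commutator K (𝐉 T)
  rwa [hK.2.1] at h

theorem J_le_nzQ : 𝐉 T ≤ normalizer (Cfsg.pCoreOf 2 K : Set G) :=
  (J_le_nzK hK).trans (nz_le_nz_pCoreOf K)

theorem W_le_omZQ : Cfsg.wOf K ≤ omZ 2 (Cfsg.pCoreOf 2 K) :=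
  commutator_le_left_of_nz ((le_nz_pCoreOf K).trans (nz_le_nz_omZ _))

theorem W_le_Q : Cfsg.wOf K ≤ Cfsg.pCoreOf 2 K := (W_le_omZQ hK).trans (omZ_le _)

theorem Q_comm_W {q w : G} (hq : q ∈ Cfsg.pCoreOf 2 K) (hw : w ∈ Cfsg.wOf K) : Commute q w :=
  (mem_omegaCenter_iff.1 (W_le_omZQ hK hw)).2.1 q hq

theorem W_comm {u w : G} (hu : u ∈ Cfsg.wOf K) (hw : w ∈ Cfsg.wOf K) : Commute u w :=
  Q_comm_W hK (W_le_Q hK hu) hw

theorem W_elem : Cfsg.IsElementaryAbelian 2 (Cfsg.wOf K) :=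
  ⟨⟨⟨fun a b => Subtype.ext (W_comm hK a.2 b.2).eq⟩⟩, fun w hw => by rw [pow_two]; exact hK.2.2.2.2.2 w hw⟩

theorem nzK_le_nzW : normalizer (K : Set G) ≤ normalizer (Cfsg.wOf K : Set G) :=
  le_nz_commutator ((nz_le_nz_pCoreOf K).trans (nz_le_nz_omZ _)) le_rfl

theorem H_le_nzK : K ⊔ 𝐉 T ≤ normalizer (K : Set G) := sup_le Subgroup.le_normalizer (J_le_nzK hK)

theorem H_le_nzW : K ⊔ 𝐉 T ≤ normalizer (Cfsg.wOf K : Set G) := (H_le_nzK hK).trans (nzK_le_nzW hK)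

theorem exists_three [Finite G] : ∃ x ∈ K, orderOf x = 3 := by
  haveI : Fact (Nat.Prime 3) := ⟨by norm_num⟩
  have h3 : 3 ∣ Nat.card K := hK.2.2.1 ▸ Subgroup.relIndex_dvd_card _ _
  obtain ⟨x, hx⟩ := exists_prime_orderOf_dvd_card' 3 h3
  exact ⟨x, x.2, by rw [← hx, Subgroup.orderOf_coe]⟩

theorem not_mem_Q [Finite G] {x : G} (hx : orderOf x = 3) : x ∉ Cfsg.pCoreOf 2 K := fun h => by
  obtain ⟨k, hk⟩ := exists_pow_eq_one (isPGroup_pCoreOf (p := 2) K) h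
  have h2 : 3 ∣ 2 ^ k := hx ▸ orderOf_dvd_of_pow_eq_one hk
  have := (show Nat.Prime 3 by norm_num).dvd_of_dvd_pow h2
  omega

theorem K_eq [Finite G] {x : G} (hxK : x ∈ K) (hx : orderOf x = 3) :
    K = Cfsg.pCoreOf 2 K ⊔ zpowers x := by
  set Q := Cfsg.pCoreOf 2 K
  have hL : Q ⊔ zpowers x ≤ K := sup_le (pCoreOf_le K) (Subgroup.zpowers_le.2 hxK)
  refine le_antisymm ?_ hL
  have hm := Subgroup.relIndex_mul_relIndex Q (Q ⊔ zpowers x) K le_sup_left hL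
  rw [hK.2.2.1] at hm
  rcases (Nat.dvd_prime (show Nat.Prime 3 by norm_num)).1 ⟨_, hm.symm⟩ with h | h
  · exact absurd ((Subgroup.relIndex_eq_one.1 h) (Subgroup.mem_sup_right (Subgroup.mem_zpowers x)))
      (not_mem_Q hK hx)
  · rw [h] at hm
    exact Subgroup.relIndex_eq_one.1 (by omega)

theorem mem_K [Finite G] {x : G} (hxK : x ∈ K) (hx : orderOf x = 3) {k : G} (hk : k ∈ K) :
    ∃ i : ℕ, ∃ q ∈ Cfsg.pCoreOf 2 K, k = x ^ i * q := by
  rw [K_eq hK hxK hx, sup_comm,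
    mem_sup_iff_of_nz ((Subgroup.zpowers_le.2 hxK).trans (le_nz_pCoreOf K))] at hk
  obtain ⟨a, ha, q, hq, rfl⟩ := hk
  rw [← mem_powers_iff_mem_zpowers] at ha
  obtain ⟨i, rfl⟩ := ha
  exact ⟨i, q, hq, rfl⟩

/-- `x` of order 3 in `K` fixes no nontrivial element of `W`. -/
theorem fix_free [Finite G] {x : G} (hxK : x ∈ K) (hx : orderOf x = 3) {w : G} (hw : w ∈ Cfsg.wOf K)
    (hc : Commute x w) : w = 1 := by
  set V := omZ 2 (Cfsg.pCoreOf 2 K)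
  have hV : ∀ a ∈ V, ∀ b ∈ V, Commute a b := fun a ha b hb =>
    (mem_omegaCenter_iff.1 hb).2.1 a (omZ_le _ ha)
  have hnV : ∀ k ∈ K, ∀ v ∈ V, k * v * k⁻¹ ∈ V := fun k hk v hv =>
    conj_mem_of_nz ((le_nz_pCoreOf K).trans (nz_le_nz_omZ _) hk) hv
  have hx3 : x ^ 3 = 1 := hx ▸ pow_orderOf_eq_one x
  let ψ : G → G := fun v => v * (x * v * x⁻¹) * (x ^ 2 * v * (x ^ 2)⁻¹)
  have hψV : ∀ v ∈ V, x * v * x⁻¹ ∈ V ∧ x ^ 2 * v * (x ^ 2)⁻¹ ∈ V := fun v hv =>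
    ⟨hnV x hxK v hv, hnV _ (K.pow_mem hxK 2) v hv⟩
  have hmul : ∀ a ∈ V, ∀ b ∈ V, ψ (a * b) = ψ a * ψ b := fun a ha b hb => by
    have e : ψ (a * b) = (a * b) * ((x * a * x⁻¹) * (x * b * x⁻¹)) *
        ((x ^ 2 * a * (x ^ 2)⁻¹) * (x ^ 2 * b * (x ^ 2)⁻¹)) := by
      simp only [ψ]; group
    rw [e, (hV b hb _ (hψV a ha).1).mul_mul_mul_comm,
      (V.mul_mem hb (hψV b hb).1 |> fun h => hV _ h _ (hψV a ha).2).mul_mul_mul_comm]
  have hrot : ∀ i : ℕ, ∀ v ∈ V, ψ (x ^ i * v * (x ^ i)⁻¹) = ψ v := by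
    intro i
    induction i with
    | zero => intro v _; simp
    | succ i ih =>
      intro v hv
      have e : x ^ (i + 1) * v * (x ^ (i + 1))⁻¹ = x ^ i * (x * v * x⁻¹) * (x ^ i)⁻¹ := by
        rw [pow_succ]; group
      rw [e, ih _ (hψV v hv).1]
      have e2 : ψ (x * v * x⁻¹) = (x * v * x⁻¹) * (x ^ 2 * v * (x ^ 2)⁻¹) * (x ^ 3 * v * (x ^ 3)⁻¹) := by
        simp only [ψ, pow_succ, pow_zero, one_mul]; group
      rw [e2, hx3, inv_one, mul_one, one_mul]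
      show _ = v * (x * v * x⁻¹) * (x ^ 2 * v * (x ^ 2)⁻¹)
      rw [mul_assoc v]
      exact ((hV _ hv _ (V.mul_mem (hψV v hv).1 (hψV v hv).2))).eq.symm
  let N : Subgroup G :=
    { carrier := {v | v ∈ V ∧ ψ v = 1}
      one_mem' := ⟨V.one_mem, by simp [ψ]⟩
      mul_mem' := fun {a b} ha hb => ⟨V.mul_mem ha.1 hb.1, by rw [hmul a ha.1 b hb.1, ha.2, hb.2, one_mul]⟩
      inv_mem' := fun {a} ha => ⟨V.inv_mem ha.1, by
        have := hmul a ha.1 a⁻¹ (V.inv_mem ha.1)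
        rw [mul_inv_cancel, ha.2, one_mul] at this
        rw [← this]; simp [ψ]⟩ }
  have hWN : Cfsg.wOf K ≤ N := by
    refine Subgroup.commutator_le.2 fun v hv k hk => ?_
    change v ∈ V at hv
    obtain ⟨i, q, hq, rfl⟩ := mem_K hK hxK hx hk
    have hqv : q * v⁻¹ * q⁻¹ = v⁻¹ := by
      rw [((mem_omegaCenter_iff.1 (V.inv_mem hv)).2.1 q hq).eq]; group
    have e : ⁅v, x ^ i * q⁆ = v * (x ^ i * v⁻¹ * (x ^ i)⁻¹) := by
      rw [commutatorElement_def]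
      calc v * (x ^ i * q) * v⁻¹ * (x ^ i * q)⁻¹
          = v * (x ^ i * (q * v⁻¹ * q⁻¹) * (x ^ i)⁻¹) := by group
        _ = _ := by rw [hqv]
    have hiv : x ^ i * v⁻¹ * (x ^ i)⁻¹ ∈ V := hnV _ (K.pow_mem hxK i) _ (V.inv_mem hv)
    rw [e]
    refine ⟨V.mul_mem hv hiv, ?_⟩
    rw [hmul v hv _ hiv, hrot i v⁻¹ (V.inv_mem hv), ← hmul v hv _ (V.inv_mem hv), mul_inv_cancel]
    simp [ψ]
  have hψw : w * (x * w * x⁻¹) * (x ^ 2 * w * (x ^ 2)⁻¹) = 1 := (hWN hw).2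
  rw [hc.eq, mul_inv_cancel_right, (hc.pow_left 2).eq, mul_inv_cancel_right, hK.2.2.2.2.2 w hw,
    one_mul] at hψw
  exact hψw

theorem W_ne_bot : Cfsg.wOf K ≠ ⊥ := fun h => by
  have := hK.2.2.2.2.1
  rw [h] at this
  simp at this

theorem not_J_le_centW [Finite G] : ¬ 𝐉 T ≤ centralizer (Cfsg.wOf K : Set G) := fun h => by
  have hKC : K ≤ centralizer (Cfsg.wOf K : Set G) := by
    conv_lhs => rw [← hK.2.1]
    refine Subgroup.commutator_le.2 fun k hk j hj => ?_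
    rw [commutatorElement_def]
    exact Subgroup.mul_mem _ (conj_mem_of_nz (le_nz_centralizer (H_le_nzW hK) (Subgroup.mem_sup_left hk))
      (h hj)) (Subgroup.inv_mem _ (h hj))
  obtain ⟨x, hxK, hx⟩ := exists_three hK
  refine W_ne_bot hK ((Subgroup.eq_bot_iff_forall _).2 fun w hw => fix_free hK hxK hx hw ?_)
  exact ((Subgroup.mem_centralizer_iff.1 (hKC hxK)) w hw).symm

variable (hT : IsPGroup 2 T)

include hT

theorem isPGroup_J : IsPGroup 2 ↥(𝐉 T) := hT.to_le (thompsonOf_le T)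

theorem isPGroup_S : IsPGroup 2 ↥(Cfsg.pCoreOf 2 K ⊔ 𝐉 T) :=
  (isPGroup_pCoreOf K).to_sup_of_normal_left' (isPGroup_J hK hT) (J_le_nzQ hK)

/-- A fixed line and the transvection shape of the action of `J` on `W`. -/
theorem exists_frame [Finite G] : ∃ w₀ w₁ : G, w₀ ∈ Cfsg.wOf K ∧ w₁ ∈ Cfsg.wOf K ∧ w₀ ≠ 1 ∧ w₁ ≠ 1 ∧
    w₁ ≠ w₀ ∧ (∀ w ∈ Cfsg.wOf K, w = 1 ∨ w = w₀ ∨ w = w₁ ∨ w = w₀ * w₁) ∧
    (∀ j ∈ 𝐉 T, Commute j w₀) ∧ ∀ j ∈ 𝐉 T, j * w₁ * j⁻¹ = w₁ ∨ j * w₁ * j⁻¹ = w₀ * w₁ := by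
  set W := Cfsg.wOf K
  set S := Cfsg.pCoreOf 2 K ⊔ 𝐉 T
  have hWS : W ≤ S := (W_le_Q hK).trans le_sup_left
  have hnS : S ≤ normalizer (W : Set G) :=
    sup_le ((pCoreOf_le K).trans (le_sup_left.trans (H_le_nzW hK))) (le_sup_right.trans (H_le_nzW hK))
  haveI : Group.IsNilpotent S := (isPGroup_S hK hT).isNilpotent
  have hne : W.subgroupOf S ≠ ⊥ := fun h => W_ne_bot hK ((Subgroup.eq_bot_iff_forall _).2 fun w hw =>
    congrArg Subtype.val ((Subgroup.eq_bot_iff_forall _).1 h ⟨w, hWS hw⟩ hw))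
  obtain ⟨⟨w₀, hwS⟩, hw₀, hw01⟩ := (Subgroup.bot_or_exists_ne_one _).resolve_left
    (S0065.inf_center_ne_bot (normal_subgroupOf hnS) hne)
  have hw₀W : w₀ ∈ W := hw₀.1
  have hw₀1 : w₀ ≠ 1 := fun h => hw01 (Subtype.ext h)
  have hfix : ∀ s ∈ S, Commute s w₀ := fun s hs =>
    congrArg Subtype.val (Subgroup.mem_center_iff.1 hw₀.2 ⟨s, hs⟩)
  obtain ⟨w₁, hw₁W, hw11, hw10⟩ : ∃ w₁ ∈ W, w₁ ≠ 1 ∧ w₁ ≠ w₀ := by
    by_contra hc
    push Not at hc
    have hsub : (W : Set G) ⊆ {1, w₀} := fun w hw => by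
      by_cases h1 : w = 1
      · exact Or.inl h1
      · exact Or.inr (hc w hw h1)
    have := Set.ncard_le_ncard hsub (Set.toFinite _)
    rw [← Nat.card_coe_set_eq, Set.ncard_pair hw₀1.symm] at this
    have h4 : Nat.card W = 4 := hK.2.2.2.2.1
    exact absurd (h4 ▸ this : 4 ≤ 2) (by norm_num)
  have h00 : w₀ * w₁ ≠ 1 := fun h => hw10 (by
    have h2 := hK.2.2.2.2.2 w₀ hw₀W
    rw [← h] at h2
    exact (mul_left_cancel h2).symm)
  have hfour : ∀ w ∈ W, w = 1 ∨ w = w₀ ∨ w = w₁ ∨ w = w₀ * w₁ := by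
    have hsub : ({1, w₀, w₁, w₀ * w₁} : Set G) ⊆ (W : Set G) := by
      rintro _ (rfl | rfl | rfl | rfl)
      exacts [W.one_mem, hw₀W, hw₁W, W.mul_mem hw₀W hw₁W]
    have hcard : ({1, w₀, w₁, w₀ * w₁} : Set G).ncard = 4 := by
      rw [Set.ncard_insert_of_notMem, Set.ncard_insert_of_notMem, Set.ncard_pair]
      · simpa using hw₀1
      · simp [hw10.symm, hw11]
      · simp [hw₀1.symm, hw11.symm, h00.symm]
    have he := Set.eq_of_subset_of_ncard_le hsub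
      (by rw [hcard, ← Nat.card_coe_set_eq]; exact hK.2.2.2.2.1.le) (Set.toFinite _)
    intro w hw
    have : w ∈ ({1, w₀, w₁, w₀ * w₁} : Set G) := he.symm ▸ hw
    simpa using this
  refine ⟨w₀, w₁, hw₀W, hw₁W, hw₀1, hw11, hw10, hfour, fun j hj => hfix j (Subgroup.mem_sup_right hj),
    fun j hj => ?_⟩
  rcases hfour _ (conj_mem_of_nz (hnS (Subgroup.mem_sup_right hj)) hw₁W) with h | h | h | h
  · exact absurd (by simpa [mul_inv_eq_one] using h) hw11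
  · refine absurd ?_ hw10
    have := (hfix j (Subgroup.mem_sup_right hj)).eq
    calc w₁ = j⁻¹ * (j * w₁ * j⁻¹) * j := by group
      _ = j⁻¹ * (w₀ * j) := by rw [h]; group
      _ = w₀ := by rw [← this]; group
  · exact Or.inl h
  · exact Or.inr h

theorem fixW_card [Finite G] :
    Nat.card ↥(Cfsg.wOf K ⊓ centralizer (𝐉 T : Set G)) = 2 := by
  obtain ⟨w₀, w₁, hw₀, hw₁, h0, h1, h10, hfour, hfix, -⟩ := exists_frame hK hT
  obtain ⟨j, hj, hjc⟩ := SetLike.not_le_iff_exists.1 (not_J_le_centW hK)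
  have hjw : ¬ Commute j w₁ := fun hc => hjc (Subgroup.mem_centralizer_iff.2 fun w hw => by
    rcases hfour w hw with rfl | rfl | rfl | rfl
    · simp
    · exact (hfix j hj).eq.symm
    · exact hc.eq.symm
    · exact ((hfix j hj).mul_right hc).eq.symm)
  have e : ((Cfsg.wOf K ⊓ centralizer (𝐉 T : Set G) : Subgroup G) : Set G) = {1, w₀} := by
    ext w
    constructor
    · rintro ⟨hw, hwc⟩
      have hwj : Commute j w := Subgroup.mem_centralizer_iff.1 hwc j hj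
      rcases hfour w hw with rfl | rfl | rfl | rfl
      · exact Or.inl rfl
      · exact Or.inr rfl
      · exact absurd hwj hjw
      · exact absurd (by simpa using (hfix j hj).inv_right.mul_right hwj) hjw
    · rintro (rfl | rfl)
      · exact Subgroup.one_mem _
      · exact ⟨hw₀, Subgroup.mem_centralizer_iff.2 fun i hi => (hfix i hi).eq⟩
  rw [show Nat.card ↥(Cfsg.wOf K ⊓ centralizer (𝐉 T : Set G)) =
    ((Cfsg.wOf K ⊓ centralizer (𝐉 T : Set G) : Subgroup G) : Set G).ncard from Nat.card_coe_set_eq _,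
    e, Set.ncard_pair h0.symm]

theorem K_inf_S [Finite G] : K ⊓ (Cfsg.pCoreOf 2 K ⊔ 𝐉 T) ≤ Cfsg.pCoreOf 2 K := by
  rintro g ⟨hgK, hgS⟩
  obtain ⟨x, hxK, hx⟩ := exists_three hK
  obtain ⟨i, q, hq, rfl⟩ := mem_K hK hxK hx hgK
  have hxi : x ^ i ∈ Cfsg.pCoreOf 2 K ⊔ 𝐉 T := by
    simpa using Subgroup.mul_mem _ hgS (Subgroup.inv_mem _ (Subgroup.mem_sup_left hq))
  have h1 : x ^ i = 1 := by
    refine eq_one_of_isPGroup_of_coprime (isPGroup_S hK hT) hxi ?_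
    exact Nat.Coprime.coprime_dvd_left (orderOf_pow_dvd i) (by rw [hx]; norm_num)
  rw [h1, one_mul]
  exact hq

theorem mem_H [Finite G] {x : G} (hxK : x ∈ K) (hx : orderOf x = 3) {h : G} (hh : h ∈ K ⊔ 𝐉 T) :
    ∃ i : ℕ, ∃ s ∈ Cfsg.pCoreOf 2 K ⊔ 𝐉 T, h = x ^ i * s := by
  obtain ⟨k, hk, j, hj, rfl⟩ := (mem_sup_iff_of_nz' (J_le_nzK hK)).1 hh
  obtain ⟨i, q, hq, rfl⟩ := mem_K hK hxK hx hk
  exact ⟨i, q * j, Subgroup.mul_mem _ (Subgroup.mem_sup_left hq) (Subgroup.mem_sup_right hj), by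
    rw [mul_assoc]⟩

theorem isSylow_S [Finite G] :
    Cfsg.IsSylowTwoIn (Cfsg.pCoreOf 2 K ⊔ 𝐉 T) (K ⊔ 𝐉 T) := by
  obtain ⟨x, hxK, hx⟩ := exists_three hK
  set S := Cfsg.pCoreOf 2 K ⊔ 𝐉 T
  have hSH : S ≤ K ⊔ 𝐉 T := sup_le_sup_right (pCoreOf_le K) _
  refine isSylowTwoIn_iff.2 ⟨hSH, isPGroup_S hK hT, ?_⟩
  have e : K ⊔ 𝐉 T = zpowers x ⊔ S := by
    conv_lhs => rw [K_eq hK hxK hx, sup_comm (Cfsg.pCoreOf 2 K), sup_assoc]
  have hcard : Nat.card ↥(K ⊔ 𝐉 T) ≤ 3 * Nat.card S := by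
    let f : Fin 3 × S → ↥(K ⊔ 𝐉 T) := fun p => ⟨x ^ (p.1 : ℕ) * p.2,
      Subgroup.mul_mem _ (Subgroup.mem_sup_left (K.pow_mem hxK _)) (hSH p.2.2)⟩
    have hf : Function.Surjective f := fun h => by
      obtain ⟨i, s, hs, e⟩ := mem_H hK hT hxK hx h.2
      refine ⟨(⟨i % 3, Nat.mod_lt _ (by norm_num)⟩, ⟨s, hs⟩), Subtype.ext ?_⟩
      simp only [f, e]
      rw [← hx, pow_mod_orderOf]
    have := Nat.card_le_card_of_surjective f hf
    simpa [Nat.card_prod] using this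
  have h3 : Nat.card S * 3 ∣ Nat.card ↥(K ⊔ 𝐉 T) := by
    refine Nat.Coprime.mul_dvd_of_dvd_of_dvd ?_ (Subgroup.card_dvd_of_le hSH)
      (hx ▸ Subgroup.orderOf_coe (⟨x, Subgroup.mem_sup_left hxK⟩ : ↥(K ⊔ 𝐉 T)) ▸ orderOf_dvd_natCard _)
    obtain ⟨n, hn⟩ := (IsPGroup.iff_card.1 (isPGroup_S hK hT))
    rw [hn]
    exact Nat.Coprime.pow_left _ (by norm_num)
  have hci := card_mul_relIndex' hSH
  have hpos : 0 < Nat.card S := Nat.card_pos
  rcases h3 with ⟨c, hc⟩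
  have hi : S.relIndex (K ⊔ 𝐉 T) = 3 * c := Nat.eq_of_mul_eq_mul_left hpos (by rw [hci, hc]; ring)
  have hc1 : c ≤ 1 := by
    by_contra hc1
    have : Nat.card S * 3 * 2 ≤ Nat.card ↥(K ⊔ 𝐉 T) := hc ▸ Nat.mul_le_mul_left _ (by omega)
    omega
  have hne : S.relIndex (K ⊔ 𝐉 T) ≠ 0 := Subgroup.index_ne_zero_of_finite
  omega

theorem J_S [Finite G] : 𝐉 (Cfsg.pCoreOf 2 K ⊔ 𝐉 T) = 𝐉 T :=
  hK.2.2.2.1 _ (isSylow_S hK hT) le_sup_right

theorem S_le_nzJ [Finite G] : Cfsg.pCoreOf 2 K ⊔ 𝐉 T ≤ normalizer (𝐉 T : Set G) := by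
  have h := Subgroup.le_normalizer.trans (nz_le_nz_thompson (Cfsg.pCoreOf 2 K ⊔ 𝐉 T))
  rwa [J_S hK hT] at h

theorem H_cent_le_S [Finite G] :
    (K ⊔ 𝐉 T) ⊓ centralizer (Cfsg.wOf K : Set G) ≤ Cfsg.pCoreOf 2 K ⊔ 𝐉 T := by
  rintro h ⟨hh, hc⟩
  obtain ⟨x, hxK, hx⟩ := exists_three hK
  obtain ⟨i, s, hs, rfl⟩ := mem_H hK hT hxK hx hh
  obtain ⟨w₀, w₁, hw₀, hw₁, h0, -, -, -, hfix, -⟩ := exists_frame hK hT
  have hs0 : Commute s w₀ := by
    have hle : Cfsg.pCoreOf 2 K ⊔ 𝐉 T ≤ centralizer ({w₀} : Set G) := sup_le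
      (fun q hq => Subgroup.mem_centralizer_singleton_iff.2 (Q_comm_W hK hq hw₀).eq)
      (fun j hj => Subgroup.mem_centralizer_singleton_iff.2 (hfix j hj).eq)
    have : s ∈ centralizer ({w₀} : Set G) := hle hs
    exact Subgroup.mem_centralizer_singleton_iff.1 this
  have hxi : Commute (x ^ i) w₀ := by
    have h2 : Commute (x ^ i * s) w₀ := (Subgroup.mem_centralizer_iff.1 hc w₀ hw₀).symm
    simpa using h2.mul_left hs0.inv_left
  by_cases h3 : 3 ∣ i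
  · obtain ⟨m, rfl⟩ := h3
    rw [pow_mul, show x ^ 3 = 1 from hx ▸ pow_orderOf_eq_one x, one_pow, one_mul]
    exact hs
  · refine absurd (fix_free hK hxK hx hw₀ ?_) h0
    have hcop : (orderOf x).Coprime i := by
      rw [hx]; exact ((show Nat.Prime 3 by norm_num).coprime_iff_not_dvd).2 h3
    obtain ⟨m, hm⟩ := exists_pow_eq_self_of_coprime hcop.symm
    rw [← hm]
    exact hxi.pow_left m

/-- The subgroup `(A ∩ C(W))W` replacing an offender `A`. -/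
theorem replace_mem [Finite G] {A : Subgroup G} (hA : A ∈ jset (Cfsg.pCoreOf 2 K ⊔ 𝐉 T)) :
    (A ⊓ centralizer (Cfsg.wOf K : Set G)) ⊔ Cfsg.wOf K ∈ jset (Cfsg.pCoreOf 2 K ⊔ 𝐉 T) := by
  set W := Cfsg.wOf K
  set S := Cfsg.pCoreOf 2 K ⊔ 𝐉 T
  set A₀ := A ⊓ centralizer (W : Set G)
  have hWS : W ≤ S := (W_le_Q hK).trans le_sup_left
  have hAJ : A ≤ 𝐉 T := J_S hK hT ▸ jset_le hA
  have hcomm : ∀ a ∈ A₀, ∀ w ∈ W, a * w = w * a := fun a ha w hw =>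
    (Subgroup.mem_centralizer_iff.1 ha.2 w hw).symm
  refine jset_of_card hA (Thompson.isElementaryAbelian_sup
    (Thompson.isElementaryAbelian_le hA.1 inf_le_left) (W_elem hK) hcomm)
    (sup_le (inf_le_left.trans hA.2.1) hWS) ?_
  by_cases hAC : A ≤ centralizer (W : Set G)
  · rw [show A₀ = A from inf_eq_left.2 hAC]
    exact Subgroup.card_le_of_le le_sup_left
  obtain ⟨a, haA, hac⟩ := SetLike.not_le_iff_exists.1 hAC
  obtain ⟨w₀, w₁, hw₀, hw₁, h0, h1, h10, hfour, hfix, hmove⟩ := exists_frame hK hT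
  have hcw : ∀ j ∈ 𝐉 T, Commute j w₁ → j ∈ centralizer (W : Set G) := fun j hj hc =>
    Subgroup.mem_centralizer_iff.2 fun w hw => by
      rcases hfour w hw with rfl | rfl | rfl | rfl
      · simp
      · exact (hfix j hj).eq.symm
      · exact hc.eq.symm
      · exact ((hfix j hj).mul_right hc).eq.symm
  have haw : a * w₁ * a⁻¹ = w₀ * w₁ := (hmove a (hAJ haA)).resolve_left fun h =>
    hac (hcw a (hAJ haA) (mul_inv_eq_iff_eq_mul.1 h))
  have hidx : A₀.relIndex A = 2 := by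
    rw [Subgroup.relIndex, Subgroup.index_eq_two_iff]
    refine ⟨⟨a, haA⟩, fun b => ?_⟩
    have hA0 : ∀ c ∈ A, c ∈ A₀ ↔ c * w₁ * c⁻¹ = w₁ := fun c hc =>
      ⟨fun h => by rw [hcomm c h w₁ hw₁, mul_inv_cancel_right],
        fun h => ⟨hc, hcw c (hAJ hc) (mul_inv_eq_iff_eq_mul.1 h)⟩⟩
    simp only [Subgroup.mem_subgroupOf, Subgroup.coe_mul]
    rw [hA0 _ (A.mul_mem b.2 haA), hA0 _ b.2]
    have e : (b : G) * a * w₁ * ((b : G) * a)⁻¹ = w₀ * ((b : G) * w₁ * (b : G)⁻¹) := by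
      calc (b : G) * a * w₁ * ((b : G) * a)⁻¹ = (b : G) * (a * w₁ * a⁻¹) * (b : G)⁻¹ := by group
        _ = ((b : G) * w₀) * w₁ * (b : G)⁻¹ := by rw [haw]; group
        _ = _ := by rw [(hfix _ (hAJ b.2)).eq]; group
    rw [e]
    rcases hmove _ (hAJ b.2) with h | h <;> rw [h]
    · exact Or.inr ⟨rfl, fun h' => h0 (mul_eq_right.1 h')⟩
    · refine Or.inl ⟨?_, fun h' => h0 (mul_eq_right.1 h')⟩
      rw [← mul_assoc, hK.2.2.2.2.2 w₀ hw₀, one_mul]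
  have hcA : Nat.card A = Nat.card A₀ * 2 := by
    rw [← card_mul_relIndex' (inf_le_left : A₀ ≤ A), hidx]
  have hsup := Coprime.card_sup_mul_card_inf_of_le_normalizer (A := A₀) (N := W)
    (fun g hg => (H_le_nzW hK) (Subgroup.mem_sup_right (hAJ hg.1)))
  have h4 : Nat.card W = 4 := hK.2.2.2.2.1
  rw [h4] at hsup
  have hinf : Nat.card ↥(A₀ ⊓ W) ≤ 2 := by
    have hle : ((A₀ ⊓ W : Subgroup G) : Set G) ⊆ {1, w₀} := by
      rintro w ⟨⟨hwA, -⟩, hwW⟩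
      have hca : Commute a w := Thompson.commute_of_elementary hA.1 haA hwA
      rcases hfour w hwW with rfl | rfl | rfl | rfl
      · exact Or.inl rfl
      · exact Or.inr rfl
      · exact absurd (hcw a (hAJ haA) hca) hac
      · exact absurd (hcw a (hAJ haA) (by simpa using (hfix a (hAJ haA)).inv_right.mul_right hca)) hac
    have := Set.ncard_le_ncard hle (Set.toFinite _)
    rw [Set.ncard_pair h0.symm, ← Nat.card_coe_set_eq] at this
    exact this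
  have h2 := Nat.mul_le_mul_left (Nat.card ↥(A₀ ⊔ W)) hinf
  omega

theorem W_le_J [Finite G] : Cfsg.wOf K ≤ 𝐉 T := by
  obtain ⟨A, hA⟩ := jset_nonempty (Cfsg.pCoreOf 2 K ⊔ 𝐉 T)
  rw [← J_S hK hT]
  exact le_sup_right.trans (jset_le (replace_mem hK hT hA))

end

end Cfsg.Agent.Lib.LocalChar.JComp
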