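import Cfsg.Agent.Lib.LocalChar.JCompBasic

/-! The splitting of `Ω₁(Z(J(T)))` for a `J(T)`-component. -/

set_option autoImplicit false
set_option linter.unusedSectionVars false
open scoped commutatorElement
open Subgroup (centralizer normalizer zpowers)

namespace Cfsg.Agent.Lib.LocalChar.JComp

variable {G : Type*} [Group G]

local notation "𝐉" T:max => Cfsg.thompsonSubgroupOf 2 T

/-- The elements of `H` acting trivially on `D` modulo `W`. -/
def relCent (H D W : Subgroup G) (hD : H ≤ normalizer (D : Set G))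
    (hW : H ≤ normalizer (W : Set G)) : Subgroup G where
  carrier := {h | h ∈ H ∧ ∀ d ∈ D, h * d * h⁻¹ * d⁻¹ ∈ W}
  one_mem' := ⟨H.one_mem, fun d _ => by simp [W.one_mem]⟩
  mul_mem' := fun {a b} ha hb => ⟨H.mul_mem ha.1 hb.1, fun d hd => by
    have := W.mul_mem (conj_mem_of_nz (hW ha.1) (hb.2 d hd)) (ha.2 d hd)
    convert this using 1
    group⟩
  inv_mem' := fun {a} ha => ⟨H.inv_mem ha.1, fun d hd => by
    have hd' : a⁻¹ * d * a ∈ D := by simpa using conj_mem_of_nz (hD (H.inv_mem ha.1)) hd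
    have := W.inv_mem (ha.2 _ hd')
    convert this using 1
    group⟩

theorem relCent_le_nz [Finite G] (H D W : Subgroup G) (hD : H ≤ normalizer (D : Set G))
    (hW : H ≤ normalizer (W : Set G)) : H ≤ normalizer (relCent H D W hD hW : Set G) := by
  refine fun h hh => mem_nz_of_cj_le (cj_le_iff.2 fun n hn => ⟨H.mul_mem (H.mul_mem hh hn.1) (H.inv_mem hh),
    fun d hd => ?_⟩)
  have hd' : h⁻¹ * d * h ∈ D := by simpa using conj_mem_of_nz (hD (H.inv_mem hh)) hd
  have := conj_mem_of_nz (hW hh) (hn.2 _ hd')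
  convert this using 1
  group

theorem K_le_relCent [Finite G] {T K : Subgroup G} (hK : Cfsg.IsJComponent T K) (D W : Subgroup G)
    (hD : K ⊔ 𝐉 T ≤ normalizer (D : Set G)) (hW : K ⊔ 𝐉 T ≤ normalizer (W : Set G))
    (hJ : ∀ j ∈ 𝐉 T, ∀ d ∈ D, j * d * j⁻¹ * d⁻¹ ∈ W) : K ≤ relCent _ D W hD hW := by
  have hJle : 𝐉 T ≤ relCent _ D W hD hW := fun j hj => ⟨Subgroup.mem_sup_right hj, hJ j hj⟩
  conv_lhs => rw [← hK.2.1]
  refine Subgroup.commutator_le.2 fun k hk j hj => ?_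
  rw [commutatorElement_def]
  exact Subgroup.mul_mem _ (conj_mem_of_nz (relCent_le_nz _ _ _ hD hW (Subgroup.mem_sup_left hk)) (hJle hj))
    (Subgroup.inv_mem _ (hJle hj))

variable {T K : Subgroup G} (hK : Cfsg.IsJComponent T K) (hT : IsPGroup 2 T)
include hK hT

theorem omegaCenter_inf_W [Finite G] :
    Cfsg.omegaCenterOf (𝐉 T) ⊓ Cfsg.wOf K = Cfsg.wOf K ⊓ centralizer (𝐉 T : Set G) := by
  refine le_antisymm (fun w hw => ⟨hw.2, Subgroup.mem_centralizer_iff.2 fun j hj =>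
    ((mem_omegaCenter_iff.1 hw.1).2.1 j hj).eq⟩) fun w hw => ⟨mem_omegaCenter_iff.2 ⟨W_le_J hK hT hw.1,
    fun j hj => Subgroup.mem_centralizer_iff.1 hw.2 j hj, ?_⟩, hw.1⟩
  rw [pow_two]
  exact hK.2.2.2.2.2 w hw.1

/-- Every element of `Ω₁(Z(J))` is the product of an element of `Ω₁(Z(J))` centralizing `KJ` and one of `W`. -/
theorem split [Finite G] {z : G} (hz : z ∈ Cfsg.omegaCenterOf (𝐉 T)) :
    ∃ z₁ ∈ Cfsg.omegaCenterOf (𝐉 T) ⊓ ((K ⊔ 𝐉 T) ⊓ centralizer ((K ⊔ 𝐉 T : Subgroup G) : Set G)),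
      ∃ w ∈ Cfsg.omegaCenterOf (𝐉 T) ⊓ Cfsg.wOf K, z = z₁ * w := by
  set W := Cfsg.wOf K
  set J := 𝐉 T
  set Q := Cfsg.pCoreOf 2 K
  set S := Q ⊔ J
  set H := K ⊔ J
  obtain ⟨hzJ, hzc, hz2⟩ := mem_omegaCenter_iff.1 hz
  have hJS : J ≤ S := le_sup_right
  have hSH : S ≤ H := sup_le_sup_right (pCoreOf_le K) _
  have hnW : H ≤ normalizer (W : Set G) := H_le_nzW hK
  set R := H ⊓ centralizer (W : Set G)
  have hRS : R ≤ S := H_cent_le_S hK hT
  have hnR : H ≤ normalizer (R : Set G) := le_nz_inf Subgroup.le_normalizer (le_nz_centralizer hnW)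
  have hWJ : W ≤ J := W_le_J hK hT
  have hzR : z ∈ R := ⟨Subgroup.mem_sup_right hzJ, Subgroup.mem_centralizer_iff.2 fun w hw =>
    (hzc w (hWJ hw)).eq⟩
  set D := sInf {A | A ∈ jset S ∧ A ≤ R}
  have hnD : H ≤ normalizer (D : Set G) := by
    refine fun h hh => mem_nz_of_cj_le (cj_le_iff.2 fun d hd => ?_)
    rw [Subgroup.mem_sInf] at hd ⊢
    rintro A ⟨hA, hAR⟩
    have hle : cj h⁻¹ A ≤ R := cj_le_iff.2 fun a ha => conj_mem_of_nz (hnR (H.inv_mem hh)) (hAR ha)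
    have := hd _ ⟨jset_cj hA (hle.trans hRS), hle⟩
    rw [mem_cj, inv_inv] at this
    exact this
  have hrep : ∀ A ∈ jset S, (A ⊓ centralizer (W : Set G)) ⊔ W ∈ jset S ∧
      (A ⊓ centralizer (W : Set G)) ⊔ W ≤ R := fun A hA => by
    refine ⟨replace_mem hK hT hA, le_inf (sup_le (inf_le_left.trans (hA.2.1.trans hSH))
      ((W_le_Q hK).trans ((le_sup_left : Q ≤ S).trans hSH))) (sup_le inf_le_right ?_)⟩
    exact fun w hw => Subgroup.mem_centralizer_iff.2 fun u hu => (W_comm hK hu hw).eq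
  have hzD : z ∈ D := by
    rw [Subgroup.mem_sInf]
    rintro A ⟨hA, -⟩
    exact mem_of_commute hA (hJS hzJ) hz2 fun a ha => hzc a ((jset_le hA).trans (J_S hK hT).le ha)
  have hDJ : ∀ j ∈ J, ∀ d ∈ D, j * d * j⁻¹ * d⁻¹ ∈ W := by
    have key : sSup (jset S) ≤ relCent H D W hnD hnW := sSup_le fun A hA a ha =>
      ⟨hSH (hA.2.1 ha), fun d hd => by
        have hd' := (Subgroup.mem_sInf.1 hd) _ (hrep A hA)
        rw [mem_sup_iff_of_nz ((inf_le_left : A ⊓ centralizer (W : Set G) ≤ A).trans (hA.2.1.trans (hSH.trans hnW)))] at hd'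
        obtain ⟨a₀, ha₀, w, hw, rfl⟩ := hd'
        have hc : a * a₀ = a₀ * a := Thompson.commute_of_elementary hA.1 ha ha₀.1
        have e : a * (a₀ * w) * a⁻¹ * (a₀ * w)⁻¹ = a₀ * ((a * w * a⁻¹) * w⁻¹) * a₀⁻¹ := by
          rw [show a * (a₀ * w) = a₀ * (a * w) by rw [← mul_assoc, hc, mul_assoc]]
          group
        rw [e]
        exact conj_mem_of_nz (hnW (hSH (hA.2.1 ha₀.1)))
          (W.mul_mem (conj_mem_of_nz (hnW (hSH (hA.2.1 ha))) hw) (W.inv_mem hw))⟩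
    rw [← thompsonOf_eq, J_S hK hT] at key
    exact fun j hj => (key hj).2
  have hKD : K ≤ relCent H D W hnD hnW := K_le_relCent hK D W hnD hnW hDJ
  obtain ⟨x, hxK, hx⟩ := exists_three hK
  have hx3 : x ^ 3 = 1 := hx ▸ pow_orderOf_eq_one x
  obtain ⟨A₁, hA₁⟩ := jset_nonempty S
  have hDe : Cfsg.IsElementaryAbelian 2 D :=
    Thompson.isElementaryAbelian_le (hrep A₁ hA₁).1.1 (sInf_le ⟨(hrep A₁ hA₁).1, (hrep A₁ hA₁).2⟩)
  have hDc : ∀ a ∈ D, ∀ b ∈ D, Commute a b := fun a ha b hb => Thompson.commute_of_elementary hDe ha hb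
  have hxD : ∀ d ∈ D, x * d * x⁻¹ ∈ D := fun d hd => conj_mem_of_nz (hnD (Subgroup.mem_sup_left hxK)) hd
  set z' := x * z * x⁻¹
  set z'' := x * z' * x⁻¹
  have hz'D : z' ∈ D := hxD z hzD
  have hz''D : z'' ∈ D := hxD z' hz'D
  set z₁ := z * z' * z''
  have hz₁D : z₁ ∈ D := D.mul_mem (D.mul_mem hzD hz'D) hz''D
  have hz₁x : Commute x z₁ := by
    have e : x * z₁ * x⁻¹ = z' * z'' * (x ^ 3 * z * (x ^ 3)⁻¹) := by
      simp only [z₁, z', z'', pow_succ, pow_zero, one_mul]; group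
    rw [hx3, inv_one, mul_one, one_mul, mul_inv_eq_iff_eq_mul] at e
    show x * z₁ = z₁ * x
    rw [e]
    congr 1
    exact (hDc z hzD _ (D.mul_mem hz'D hz''D)).eq.symm.trans (mul_assoc _ _ _).symm
  set w := z * z₁
  have hwW : w ∈ W := by
    have e1 : z' * z⁻¹ ∈ W := (hKD hxK).2 z hzD
    have e2 : z'' * z'⁻¹ ∈ W := (hKD hxK).2 z' hz'D
    have e : w = (z' * z⁻¹) * (z'' * z'⁻¹) * (z' * z⁻¹) := by
      have hzz : z * z = 1 := by rw [← pow_two]; exact hz2
      have hii : z⁻¹ = z := inv_eq_of_mul_eq_one_right hzz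
      have hz'i : z'⁻¹ = z' := inv_eq_of_mul_eq_one_right (by rw [← pow_two]; exact hDe.2 z' hz'D)
      simp only [w, z₁, hii, hz'i]
      calc z * (z * z' * z'') = (z * z) * (z' * z'') := by group
        _ = z' * z'' := by rw [hzz, one_mul]
        _ = (z' * z'') * (z * z) * (z' * z') := by
          rw [hzz, ← pow_two z', hDe.2 z' hz'D, mul_one, mul_one]
        _ = _ := by
          have h1 := (hDc z'' hz''D z hzD).eq
          have h2 := (hDc z hzD z' hz'D).eq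
          have h3 := (hDc z'' hz''D z' hz'D).eq
          calc z' * z'' * (z * z) * (z' * z') = z' * (z'' * z) * (z * z') * z' := by group
            _ = z' * (z * z'') * (z' * z) * z' := by rw [h1, h2]
            _ = z' * z * (z'' * z') * (z * z') := by group
            _ = z' * z * (z'' * z') * (z' * z) := by rw [h2]
    rw [e]
    exact W.mul_mem (W.mul_mem e1 e2) e1
  have hzz₁ : z = z₁ * w := by
    simp only [w]
    rw [← mul_assoc, (hDc z₁ hz₁D z hzD).eq, mul_assoc, ← pow_two, hDe.2 z₁ hz₁D, mul_one]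
  have hJR : ∀ r ∈ J ⊓ centralizer (W : Set G), Commute r z₁ := fun r hr => by
    have h1 : Commute r (z * w) := (hzc r hr.1).mul_right
      ((Subgroup.mem_centralizer_iff.1 hr.2 w hwW).symm : Commute r w)
    rwa [show z * w = z₁ by simp only [w]; rw [← mul_assoc, ← pow_two, hz2, one_mul]] at h1
  set C := Q ⊓ centralizer ({z₁} : Set G)
  have hQH : Q ≤ H := (pCoreOf_le K).trans le_sup_left
  have hQJ : Q ≤ normalizer (J : Set G) := le_sup_left.trans (S_le_nzJ hK hT)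
  have hQW : ∀ q ∈ Q, q * z₁ * q⁻¹ * z₁⁻¹ ∈ W := fun q hq => (hKD (pCoreOf_le K hq)).2 z₁ hz₁D
  have hnC : K ≤ normalizer (C : Set G) := by
    rw [K_eq hK hxK hx]
    refine sup_le (fun q hq => mem_nz_of_cj_le (cj_le_iff.2 fun c hc => ⟨?_, ?_⟩))
      (Subgroup.zpowers_le.2 (mem_nz_of_cj_le (cj_le_iff.2 fun c hc => ⟨?_, ?_⟩)))
    · exact Q.mul_mem (Q.mul_mem hq hc.1) (Q.inv_mem hq)
    · refine Subgroup.mem_centralizer_singleton_iff.2 ?_
      have hcz : c * z₁ = z₁ * c := Subgroup.mem_centralizer_singleton_iff.1 hc.2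
      set u := q⁻¹ * z₁ * q⁻¹⁻¹ * z₁⁻¹
      have hu : u ∈ W := hQW _ (Q.inv_mem hq)
      have hcu : c * u = u * c := (Q_comm_W hK hc.1 hu).eq
      have e : q⁻¹ * z₁ * q = u * z₁ := by simp only [u]; group
      calc q * c * q⁻¹ * z₁ = q * (c * (q⁻¹ * z₁ * q)) * q⁻¹ := by group
        _ = q * ((c * u) * z₁) * q⁻¹ := by rw [e]; group
        _ = q * (u * (c * z₁)) * q⁻¹ := by rw [hcu]; group
        _ = q * ((u * z₁) * c) * q⁻¹ := by rw [hcz]; group
        _ = _ := by rw [← e]; group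
    · exact conj_mem_of_nz (le_nz_pCoreOf K hxK) hc.1
    · refine Subgroup.mem_centralizer_singleton_iff.2 ?_
      have hcz : Commute c z₁ := Subgroup.mem_centralizer_singleton_iff.1 hc.2
      exact (((hz₁x.mul_left hcz).mul_left hz₁x.inv_left)).eq
  have hxn : x ∈ normalizer (C : Set G) := hnC hxK
  set E := C ⊔ zpowers x
  have hEK : E ≤ centralizer ({z₁} : Set G) := sup_le inf_le_right
    (Subgroup.zpowers_le.2 (Subgroup.mem_centralizer_singleton_iff.2 hz₁x.eq))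
  -- `J` acts trivially on `Q` modulo `C`, hence so does `K`
  have hQC : ∀ k ∈ K, ∀ q ∈ Q, k * q * k⁻¹ * q⁻¹ ∈ C := by
    have hnQ : H ≤ normalizer (Q : Set G) := sup_le (le_nz_pCoreOf K) (J_le_nzQ hK)
    have hcq : ∀ j ∈ J, ∀ q ∈ Q, j * q * j⁻¹ * q⁻¹ ∈ C := fun j hj q hq => by
      have h1 : j * q * j⁻¹ * q⁻¹ ∈ Q := Q.mul_mem (conj_mem_of_nz (hnQ (Subgroup.mem_sup_right hj)) hq)
        (Q.inv_mem hq)
      have h2 : j * q * j⁻¹ * q⁻¹ ∈ J := by
        have := J.mul_mem hj (conj_mem_of_nz (hQJ hq) (J.inv_mem hj))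
        convert this using 1
        group
      exact ⟨h1, Subgroup.mem_centralizer_singleton_iff.2 (hJR _ ⟨h2, Subgroup.mem_centralizer_iff.2
        fun w hw => (Q_comm_W hK h1 hw).eq.symm⟩).eq⟩
    have hnCH : H ≤ normalizer (C : Set G) := sup_le hnC fun j hj =>
      mem_nz_of_cj_le (cj_le_iff.2 fun c hc => by
        have := C.mul_mem (hcq j hj c hc.1) hc
        simpa using this)
    exact fun k hk => (K_le_relCent hK Q C hnQ hnCH hcq hk).2
  have hKz : K ≤ centralizer ({z₁} : Set G) := by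
    conv_lhs => rw [← hK.1]
    refine (Subgroup.closure_le _).2 fun g ⟨hg, hgo⟩ => ?_
    have hnE : K ≤ normalizer (E : Set G) := by
      rw [K_eq hK hxK hx]
      refine sup_le (fun q hq => mem_nz_of_cj_le ?_) (le_sup_right.trans Subgroup.le_normalizer)
      refine (Subgroup.map_sup _ _ _).trans_le (sup_le ?_ ?_)
      · exact (cj_eq_of_mem_nz (hnC (pCoreOf_le K hq))).le.trans le_sup_left
      · rw [MonoidHom.map_zpowers, Subgroup.zpowers_le]
        have h1 := hQC x hxK q hq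
        have e : q * x * q⁻¹ = (x * q * x⁻¹ * q⁻¹)⁻¹ * x := by group
        show q * x * q⁻¹ ∈ E
        rw [e]
        exact E.mul_mem (Subgroup.mem_sup_left (C.inv_mem h1)) (Subgroup.mem_sup_right (Subgroup.mem_zpowers x))
    have hgE : g ∈ E := by
      obtain ⟨i, q, hq, rfl⟩ := mem_K hK hxK hx hg
      have hxi : x ^ i ∈ E := E.pow_mem (Subgroup.mem_sup_right (Subgroup.mem_zpowers x)) i
      have e : x ^ i * q = q * (q⁻¹ * x ^ i * q) := by group
      rw [e]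
      refine mem_of_mul_coprime (p := 2) (hnE (pCoreOf_le K hq)) (exists_pow_eq_one (isPGroup_pCoreOf K) hq)
        (by simpa using conj_mem_of_nz (hnE (K.inv_mem (pCoreOf_le K hq))) hxi) ?_
      rw [← e]
      exact Nat.coprime_two_right.2 hgo
    exact hEK hgE
  have hJz : ∀ j ∈ J, Commute j z₁ := fun j hj => by
    set d := j * z₁ * j⁻¹ * z₁⁻¹
    have hdW : d ∈ W := hDJ j hj z₁ hz₁D
    have hjx : j⁻¹ * x * j ∈ K := by simpa using conj_mem_of_nz (J_le_nzK hK (J.inv_mem hj)) hxK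
    have hc : Commute (j⁻¹ * x * j) z₁ := Subgroup.mem_centralizer_singleton_iff.1 (hKz hjx)
    have hcx : Commute x (j * z₁ * j⁻¹) := by
      have := Commute.map hc (MulAut.conj j).toMonoidHom
      simpa [mul_assoc] using this
    have hd1 : d = 1 := fix_free hK hxK hx hdW (hcx.mul_right hz₁x.inv_right)
    exact mul_inv_eq_iff_eq_mul.1 (mul_inv_eq_one.1 hd1)
  have hz₁J : z₁ ∈ J := by
    have : z₁ = z * w := by simp only [w]; rw [← mul_assoc, ← pow_two, hz2, one_mul]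
    rw [this]; exact J.mul_mem hzJ (hWJ hwW)
  have hz₁Z : z₁ ∈ Cfsg.omegaCenterOf J := mem_omegaCenter_iff.2 ⟨hz₁J, fun j hj => hJz j hj, hDe.2 z₁ hz₁D⟩
  refine ⟨z₁, ⟨hz₁Z, Subgroup.mem_sup_right hz₁J, Subgroup.mem_centralizer_iff.2 fun h hh => ?_⟩, w,
    ⟨?_, hwW⟩, hzz₁⟩
  · have : h ∈ centralizer ({z₁} : Set G) :=
      (sup_le hKz fun j hj => Subgroup.mem_centralizer_singleton_iff.2 (hJz j hj).eq : H ≤ _) hh
    exact Subgroup.mem_centralizer_singleton_iff.1 this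
  · exact Subgroup.mul_mem _ hz hz₁Z

end Cfsg.Agent.Lib.LocalChar.JComp
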