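import Cfsg.Prelude.Def_LocalEven
import Cfsg.Agent.Lib.Classical.SylowGL

/-! Coordinates on a faithful natural `SL₂`-module, adapted to a Sylow subgroup. -/

set_option autoImplicit false

namespace Cfsg.Agent.Lib.LocalChar.Natural

open Matrix
open Cfsg.Agent.Lib.Classical

variable {G : Type*} [Group G] {F : Type*} [Field F] {p : ℕ} {V L T : Subgroup G}

theorem charP_of_card [Fintype F] [Fact p.Prime] {n : ℕ} (hF : Fintype.card F = p ^ n) : CharP F p := by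
  obtain ⟨q, hq⟩ := CharP.exists F
  obtain ⟨a, hqp, ha⟩ := FiniteField.card F q
  have : q = p := (Nat.prime_dvd_prime_iff_eq hqp (Fact.out : p.Prime)).1
    (hqp.dvd_of_dvd_pow (hF ▸ ha ▸ dvd_pow_self q a.ne_zero))
  exact this ▸ hq

/-- Adapted coordinates. -/
structure Frame (F : Type*) [Field F] (V L T : Subgroup G) where
  ρ : ↥L ≃* SpecialLinearGroup (Fin 2) F
  ψ : Additive ↥V ≃+ (Fin 2 → F)
  hLV : L ≤ Subgroup.normalizer (V : Set G)
  act : ∀ (l : ↥L) (v w : ↥V), (w : G) = (l : G) * (v : G) * (l : G)⁻¹ →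
    ψ (Additive.ofMul w) = (ρ l : Matrix (Fin 2) (Fin 2) F).mulVec (ψ (Additive.ofMul v))
  hTL : T ≤ L
  memT : ∀ l : ↥L, (l : G) ∈ T ↔ ρ l ∈ upperUSL F

theorem exists_frame [Finite G] [Fintype F] [Fact p.Prime] [CharP F p]
    (hnat : Cfsg.IsNaturalSL2Module F V L) (hf : L ⊓ Subgroup.centralizer (V : Set G) = ⊥)
    (S : Sylow p ↥L) (hT : T = (S : Subgroup ↥L).map L.subtype) : Nonempty (Frame F V L T) := by
  obtain ⟨hLV, ρ0, ψ0, hsurj, hker, hact⟩ := hnat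
  have hinj : Function.Injective ρ0 := by
    rw [← MonoidHom.ker_eq_bot_iff, hker, eq_bot_iff]
    intro l hl
    rw [Subgroup.mem_bot]
    have h : (l : G) ∈ L ⊓ Subgroup.centralizer (V : Set G) := ⟨l.2, hl⟩
    rw [hf, Subgroup.mem_bot] at h
    exact Subtype.ext h
  obtain ⟨g, hg⟩ := exists_conj_upperUSL (S.mapSurjective hsurj)
  set e := (MulEquiv.ofBijective ρ0 ⟨hinj, hsurj⟩).trans (MulAut.conj g⁻¹)
  refine ⟨⟨e, ψ0.trans (SpecialLinearGroup.toLin' g⁻¹).toAddEquiv, hLV, ?_,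
    hT ▸ Subgroup.map_subtype_le _, ?_⟩⟩
  · intro l v w hw
    obtain ⟨w', hw', he⟩ := hact l v
    obtain rfl : w = w' := Subtype.ext (hw.trans hw'.symm)
    show (↑(g⁻¹ : SpecialLinearGroup (Fin 2) F) : Matrix (Fin 2) (Fin 2) F).mulVec (ψ0 (Additive.ofMul w)) =
      ((g⁻¹ * ρ0 l * g⁻¹⁻¹ : SpecialLinearGroup (Fin 2) F) : Matrix (Fin 2) (Fin 2) F).mulVec
        ((↑(g⁻¹ : SpecialLinearGroup (Fin 2) F) : Matrix (Fin 2) (Fin 2) F).mulVec (ψ0 (Additive.ofMul v)))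
    rw [he, Matrix.mulVec_mulVec, Matrix.mulVec_mulVec]
    have key : g⁻¹ * ρ0 l * g⁻¹⁻¹ * g⁻¹ = g⁻¹ * ρ0 l := by group
    exact congrArg (fun A : SpecialLinearGroup (Fin 2) F => (A : Matrix (Fin 2) (Fin 2) F).mulVec (ψ0 (Additive.ofMul v))) key.symm
  · intro l
    have h1 : (l : G) ∈ T ↔ ρ0 l ∈ ((S.mapSurjective hsurj : Sylow p _) : Subgroup _) := by
      rw [hT, Sylow.coe_mapSurjective]
      constructor
      · rintro ⟨s, hs, hsl⟩
        obtain rfl : s = l := Subtype.ext hsl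
        exact ⟨s, hs, rfl⟩
      · rintro ⟨s, hs, hsl⟩
        obtain rfl : s = l := hinj hsl
        exact ⟨s, hs, rfl⟩
    rw [h1, hg, Subgroup.mem_map_equiv, MulAut.conj_symm_apply]
    show g⁻¹ * ρ0 l * g ∈ upperUSL F ↔ g⁻¹ * ρ0 l * g⁻¹⁻¹ ∈ upperUSL F
    rw [inv_inv]

namespace Frame

variable (f : Frame F V L T)

/-- Coordinate vector. -/
def vec (v : ↥V) : Fin 2 → F := f.ψ (Additive.ofMul v)

theorem vec_mul (v w : ↥V) : f.vec (v * w) = f.vec v + f.vec w := map_add f.ψ _ _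

theorem vec_one : f.vec 1 = 0 := map_zero f.ψ

theorem vec_inj {v w : ↥V} (h : f.vec v = f.vec w) : v = w := Additive.ofMul.injective (f.ψ.injective h)

theorem exists_vec (x : Fin 2 → F) : ∃ v : ↥V, f.vec v = x :=
  ⟨Additive.toMul (f.ψ.symm x), f.ψ.apply_symm_apply x⟩

include f in
theorem conj_mem (l : ↥L) (v : ↥V) : (l : G) * v * (l : G)⁻¹ ∈ V :=
  (Subgroup.mem_normalizer_iff.1 (f.hLV l.2) v).1 v.2

theorem vec_conj (l : ↥L) (v : ↥V) :
    f.vec ⟨_, f.conj_mem l v⟩ = (f.ρ l : Matrix (Fin 2) (Fin 2) F).mulVec (f.vec v) :=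
  f.act l v _ rfl

theorem commute_iff (l : ↥L) (v : ↥V) :
    Commute (l : G) (v : G) ↔ (f.ρ l : Matrix (Fin 2) (Fin 2) F).mulVec (f.vec v) = f.vec v := by
  rw [← f.vec_conj l v]
  constructor
  · intro h
    congr 1
    exact Subtype.ext (show (l : G) * v * (l : G)⁻¹ = v by rw [h.eq, mul_inv_cancel_right])
  · intro h
    have h1 : (l : G) * v * (l : G)⁻¹ = v := congrArg Subtype.val (f.vec_inj h)
    exact mul_inv_eq_iff_eq_mul.1 h1

/-- The element of `L` with given upper unipotent matrix. -/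
noncomputable def uni (t : F) : ↥L :=
  f.ρ.symm ⟨!![1, t; 0, 1], by simp [Matrix.det_fin_two]⟩

theorem coe_rho_uni (t : F) : (f.ρ (f.uni t) : Matrix (Fin 2) (Fin 2) F) = !![1, t; 0, 1] := by
  exact congrArg (fun A : SpecialLinearGroup (Fin 2) F => (A : Matrix (Fin 2) (Fin 2) F)) (f.ρ.apply_symm_apply _)

theorem uni_mem (t : F) : (f.uni t : G) ∈ T := by
  rw [f.memT, mem_upperUSL]
  simp [coe_rho_uni]

theorem exists_uni {s : G} (hs : s ∈ T) : ∃ t : F, f.uni t = ⟨s, f.hTL hs⟩ := by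
  obtain ⟨h00, h11, h10⟩ := mem_upperUSL.1 ((f.memT ⟨s, f.hTL hs⟩).1 hs)
  refine ⟨(f.ρ ⟨s, f.hTL hs⟩ : Matrix (Fin 2) (Fin 2) F) 0 1, f.ρ.injective (Subtype.ext ?_)⟩
  rw [coe_rho_uni]
  ext i j
  fin_cases i <;> fin_cases j <;> simp [h00, h11, h10]

theorem uni_zero : (f.uni 0 : G) = 1 := by
  rw [show f.uni 0 = 1 from f.ρ.injective (Subtype.ext (by
    rw [coe_rho_uni, map_one]; ext i j; fin_cases i <;> fin_cases j <;> simp))]
  rfl

theorem uni_mulVec (t : F) (x : Fin 2 → F) :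
    (!![1, t; 0, 1] : Matrix (Fin 2) (Fin 2) F).mulVec x = ![x 0 + t * x 1, x 1] := by
  funext i
  fin_cases i <;> simp [Matrix.mulVec, dotProduct, Fin.sum_univ_two]

theorem commute_uni_iff (t : F) (v : ↥V) :
    Commute (f.uni t : G) (v : G) ↔ t = 0 ∨ f.vec v 1 = 0 := by
  rw [f.commute_iff, coe_rho_uni, uni_mulVec]
  constructor
  · intro h
    have h0 : f.vec v 0 + t * f.vec v 1 = f.vec v 0 := by
      have := congrFun h 0
      simpa using this
    exact mul_eq_zero.1 (add_eq_left.1 h0)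
  · intro h
    have h0 : t * f.vec v 1 = 0 := mul_eq_zero.2 h
    funext i
    fin_cases i <;> simp [h0]

/-- Fixed points of the Sylow subgroup: the first coordinate line. -/
theorem mem_fix_iff (v : ↥V) :
    (v : G) ∈ Subgroup.centralizer (T : Set G) ↔ f.vec v 1 = 0 := by
  constructor
  · intro h
    exact ((f.commute_uni_iff 1 v).1 (h _ (f.uni_mem 1))).resolve_left one_ne_zero
  · intro h s hs
    obtain ⟨t, ht⟩ := f.exists_uni hs
    have := (f.commute_uni_iff t v).2 (Or.inr h)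
    rw [ht] at this
    exact this.eq

/-- The commutator of a vector with a transvection. -/
theorem vec_comm (t : F) (v : ↥V) :
    ∃ w : ↥V, (w : G) = (v : G) * (f.uni t : G) * (v : G)⁻¹ * (f.uni t : G)⁻¹ ∧
      f.vec w = ![-(t * f.vec v 1), 0] := by
  refine ⟨v * (⟨_, f.conj_mem (f.uni t) v⟩ : ↥V)⁻¹, ?_, ?_⟩
  · simp [mul_assoc]
  · rw [f.vec_mul]
    have h := f.vec_mul (⟨_, f.conj_mem (f.uni t) v⟩ : ↥V)⁻¹ ⟨_, f.conj_mem (f.uni t) v⟩
    rw [inv_mul_cancel, f.vec_one] at h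
    rw [eq_neg_of_add_eq_zero_left h.symm, f.vec_conj, coe_rho_uni, uni_mulVec]
    funext i
    fin_cases i <;> simp

include f in
theorem card_V [Fintype F] : Nat.card ↥V = Fintype.card F ^ 2 := by
  rw [show Nat.card ↥V = Nat.card (Additive ↥V) from rfl, Nat.card_congr f.ψ.toEquiv, Nat.card_fun,
    Nat.card_eq_fintype_card, Nat.card_eq_fintype_card, Fintype.card_fin]

include f in
theorem card_fix [Fintype F] : Nat.card ↥(V ⊓ Subgroup.centralizer (T : Set G)) = Fintype.card F := by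
  rw [← Nat.card_eq_fintype_card]
  refine Nat.card_congr
    { toFun := fun x => f.vec ⟨x, x.2.1⟩ 0
      invFun := fun a => ⟨(Additive.toMul (f.ψ.symm ![a, 0]) : ↥V),
        (Additive.toMul (f.ψ.symm ![a, 0]) : ↥V).2, (f.mem_fix_iff _).2 (by simp [vec])⟩
      left_inv := fun x => ?_
      right_inv := fun a => by simp [vec] }
  obtain ⟨x, hxV, hx⟩ := x
  refine Subtype.ext ?_
  have h := (f.mem_fix_iff ⟨x, hxV⟩).1 hx
  show ((Additive.toMul (f.ψ.symm ![f.vec ⟨x, hxV⟩ 0, 0]) : ↥V) : G) = x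
  rw [show (![f.vec ⟨x, hxV⟩ 0, 0] : Fin 2 → F) = f.vec ⟨x, hxV⟩ by
    funext i; fin_cases i <;> simp [h]]
  simp [vec]

end Frame

end Cfsg.Agent.Lib.LocalChar.Natural
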