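import Cfsg.Prelude.Def_LocalEven
import Cfsg.Prelude.Def_PLocal
import Cfsg.Agent.Lib.Classical.SylowGL
import Cfsg.Agent.Lib.LocalChar.Core

/-! Structure of the affine subgroup `Qd` of `SL₃` over a field. -/

set_option autoImplicit false

namespace Cfsg.Agent.Lib.LocalChar.QdField

open Matrix
open Cfsg.Agent.Lib.Classical

variable {F : Type*} [Field F]

local notation "SL3" => SpecialLinearGroup (Fin 3) F
local notation "SL2" => SpecialLinearGroup (Fin 2) F

/-- The entries of an element. -/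
abbrev ent (M : ↥(Cfsg.qdOver F)) : Matrix (Fin 3) (Fin 3) F :=
  ((M : SL3) : Matrix (Fin 3) (Fin 3) F)

theorem ext_ent {M N : ↥(Cfsg.qdOver F)} (h : ent M = ent N) : M = N := Subtype.ext (Subtype.ext h)

theorem shape (M : ↥(Cfsg.qdOver F)) : ent M 2 0 = 0 ∧ ent M 2 1 = 0 ∧ ent M 2 2 = 1 := by
  obtain ⟨M, hM⟩ := M
  show (M : Matrix (Fin 3) (Fin 3) F) 2 0 = 0 ∧ (M : Matrix (Fin 3) (Fin 3) F) 2 1 = 0 ∧
    (M : Matrix (Fin 3) (Fin 3) F) 2 2 = 1
  induction hM using Subgroup.closure_induction with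
  | mem x hx => exact hx
  | one => simp
  | mul x y _ _ hx hy =>
    simp [Matrix.mul_apply, Fin.sum_univ_three, hx.1, hx.2.1, hx.2.2, hy.1, hy.2.1, hy.2.2]
  | inv x _ hx =>
    obtain ⟨y, hy⟩ : ∃ y : SL3, y = x⁻¹ := ⟨_, rfl⟩
    rw [← hy]
    have h : (x : Matrix (Fin 3) (Fin 3) F) * (y : Matrix (Fin 3) (Fin 3) F) = 1 := by
      exact congrArg Subtype.val (show x * y = 1 by rw [hy, mul_inv_cancel])
    have e : ∀ j, ((x : Matrix (Fin 3) (Fin 3) F) * (y : Matrix (Fin 3) (Fin 3) F)) 2 j =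
        (y : Matrix (Fin 3) (Fin 3) F) 2 j := by
      intro j; simp [Matrix.mul_apply, Fin.sum_univ_three, hx.1, hx.2.1, hx.2.2]
    refine ⟨?_, ?_, ?_⟩ <;> rw [← e, h] <;> simp

theorem ent_mul (M N : ↥(Cfsg.qdOver F)) : ent (M * N) = ent M * ent N := rfl

theorem ent_one : ent (1 : ↥(Cfsg.qdOver F)) = 1 := rfl

/-- The element with block `A` and translation `v`. -/
def el (A : SL2) (v : Fin 2 → F) : ↥(Cfsg.qdOver F) :=
  ⟨⟨!![(A : Matrix (Fin 2) (Fin 2) F) 0 0, (A : Matrix (Fin 2) (Fin 2) F) 0 1, v 0;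
      (A : Matrix (Fin 2) (Fin 2) F) 1 0, (A : Matrix (Fin 2) (Fin 2) F) 1 1, v 1; 0, 0, 1], by
    have h := A.2
    rw [Matrix.det_fin_two] at h
    simp [Matrix.det_fin_three]
    linear_combination h⟩, Subgroup.subset_closure ⟨rfl, rfl, rfl⟩⟩

theorem el_mul (A B : SL2) (v w : Fin 2 → F) :
    el A v * el B w = el (A * B) ((A : Matrix (Fin 2) (Fin 2) F).mulVec w + v) := by
  apply ext_ent
  rw [ent_mul]
  ext i j
  fin_cases i <;> fin_cases j <;>
    simp [ent, el, Matrix.mul_apply, Fin.sum_univ_three, Fin.sum_univ_two]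

theorem el_one : el (1 : SL2) 0 = 1 := by
  apply ext_ent
  ext i j
  fin_cases i <;> fin_cases j <;> simp [ent, el]

/-- The block projection. -/
def toSL : ↥(Cfsg.qdOver F) →* SL2 where
  toFun M := ⟨!![ent M 0 0, ent M 0 1; ent M 1 0, ent M 1 1], by
    obtain ⟨h0, h1, h2⟩ := shape M
    have h := (M : SL3).2
    rw [Matrix.det_fin_three] at h
    rw [Matrix.det_fin_two_of]
    simp only [ent] at h0 h1 h2 ⊢
    rw [h0, h1, h2] at h
    linear_combination h⟩
  map_one' := by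
    ext i j
    fin_cases i <;> fin_cases j <;> simp [ent]
  map_mul' M N := by
    obtain ⟨h0, h1, -⟩ := shape N
    apply Subtype.ext
    show !![ent (M * N) 0 0, ent (M * N) 0 1; ent (M * N) 1 0, ent (M * N) 1 1] =
      !![ent M 0 0, ent M 0 1; ent M 1 0, ent M 1 1] * !![ent N 0 0, ent N 0 1; ent N 1 0, ent N 1 1]
    rw [ent_mul]
    ext i j
    fin_cases i <;> fin_cases j <;> simp [Matrix.mul_apply, Fin.sum_univ_three, Fin.sum_univ_two, h0, h1]

theorem toSL_el (A : SL2) (v : Fin 2 → F) : toSL (el A v) = A := by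
  ext i j
  fin_cases i <;> fin_cases j <;> rfl

theorem eq_el (M : ↥(Cfsg.qdOver F)) : M = el (toSL M) ![ent M 0 2, ent M 1 2] := by
  obtain ⟨h0, h1, h2⟩ := shape M
  apply ext_ent
  ext i j
  fin_cases i <;> fin_cases j <;> first | rfl | exact h0 | exact h1 | exact h2

theorem el_inj {A B : SL2} {v w : Fin 2 → F} (h : el A v = el B w) : A = B ∧ v = w := by
  refine ⟨by rw [← toSL_el A v, h, toSL_el], funext fun i => ?_⟩
  fin_cases i
  · exact congrArg (fun M => ent M 0 2) h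
  · exact congrArg (fun M => ent M 1 2) h

theorem toSL_surjective : Function.Surjective (toSL (F := F)) := fun A => ⟨el A 0, toSL_el A 0⟩

theorem mem_ker {M : ↥(Cfsg.qdOver F)} : M ∈ (toSL (F := F)).ker ↔ ∃ v, M = el 1 v := by
  constructor
  · intro h
    exact ⟨![ent M 0 2, ent M 1 2], (eq_el M).trans (by rw [show toSL M = 1 from h])⟩
  · rintro ⟨v, rfl⟩
    exact toSL_el 1 v

theorem el_tr_mul (v w : Fin 2 → F) : el (1 : SL2) v * el 1 w = el 1 (v + w) := by
  rw [el_mul, one_mul]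
  congr 1
  show (1 : Matrix (Fin 2) (Fin 2) F).mulVec w + v = v + w
  rw [Matrix.one_mulVec, add_comm]

theorem el_tr_pow (v : Fin 2 → F) (n : ℕ) : el (1 : SL2) v ^ n = el 1 (n • v) := by
  induction n with
  | zero => rw [pow_zero, zero_smul, el_one]
  | succ n ih => rw [pow_succ, ih, el_tr_mul, succ_nsmul]

theorem el_conj (A : SL2) (v w : Fin 2 → F) :
    el A w * el 1 v * (el A w)⁻¹ = el 1 ((A : Matrix (Fin 2) (Fin 2) F).mulVec v) := by
  rw [mul_inv_eq_iff_eq_mul, el_mul, el_mul, mul_one, one_mul]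
  congr 1
  show (A : Matrix (Fin 2) (Fin 2) F).mulVec v + w =
    (1 : Matrix (Fin 2) (Fin 2) F).mulVec w + (A : Matrix (Fin 2) (Fin 2) F).mulVec v
  rw [Matrix.one_mulVec, add_comm]

theorem isPGroup_ker {p : ℕ} [CharP F p] : IsPGroup p (toSL (F := F)).ker := by
  intro x
  obtain ⟨v, hv⟩ := mem_ker.1 x.2
  refine ⟨1, Subtype.ext ?_⟩
  rw [pow_one, SubmonoidClass.coe_pow, hv, el_tr_pow]
  have : (p : ℕ) • v = 0 := by
    funext i
    simp [nsmul_eq_mul]
  rw [this, el_one, OneMemClass.coe_one]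

/-- An additive subgroup of the plane invariant under `SL₂` is trivial or everything. -/
theorem invariant_eq_univ (W : Set (Fin 2 → F)) (hsub : ∀ a ∈ W, ∀ b ∈ W, a - b ∈ W)
    (hinv : ∀ (A : SL2), ∀ a ∈ W, (A : Matrix (Fin 2) (Fin 2) F).mulVec a ∈ W)
    {a : Fin 2 → F} (ha : a ∈ W) (ha0 : a ≠ 0) (b : Fin 2 → F) : b ∈ W := by
  have hup : ∀ (t : F) (x : Fin 2 → F), x ∈ W → ![t * x 1, 0] ∈ W := by
    intro t x hx
    have := hsub _ (hinv ⟨!![1, t; 0, 1], by simp [Matrix.det_fin_two]⟩ x hx) x hx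
    convert this using 1
    funext i
    fin_cases i <;> simp [Matrix.vecHead, Matrix.vecTail]
  have hlow : ∀ (t : F) (x : Fin 2 → F), x ∈ W → ![0, t * x 0] ∈ W := by
    intro t x hx
    have := hsub _ (hinv ⟨!![1, 0; t, 1], by simp [Matrix.det_fin_two]⟩ x hx) x hx
    convert this using 1
    funext i
    fin_cases i <;> simp [Matrix.vecHead, Matrix.vecTail]
  obtain ⟨c, hc, hc1⟩ : ∃ c ∈ W, c 1 ≠ 0 := by
    by_cases h : a 1 = 0
    · have h0 : a 0 ≠ 0 := fun h0 => ha0 (by funext i; fin_cases i <;> simp [h, h0])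
      exact ⟨_, hlow 1 a ha, by simpa using h0⟩
    · exact ⟨a, ha, h⟩
  have hx : ∀ s : F, ![s, 0] ∈ W := fun s => by
    have := hup (s / c 1) c hc
    rwa [div_mul_cancel₀ _ hc1] at this
  have hy : ∀ s : F, ![0, s] ∈ W := fun s => by
    have := hlow s _ (hx 1)
    simpa using this
  have := hsub _ (hx (b 0)) _ (hy (-(b 1)))
  convert this using 1
  funext i
  fin_cases i <;> simp

variable {p : ℕ}

theorem pCore_SL2 [Fintype F] [Fact p.Prime] [CharP F p] : Cfsg.pCore p SL2 = ⊥ := by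
  obtain ⟨a, -, hq⟩ := exists_card_eq_pow (F := F) p
  obtain ⟨U, hU⟩ := (IsPGroup.of_card (p := p) (G := upperUSL F) (n := a)
    (by rw [card_upperUSL, hq])).exists_le_sylow
  have hU' : upperUSL F = U := Subgroup.eq_of_le_of_card_ge hU (by rw [card_upperUSL, card_sylow_SL2 U])
  rw [eq_bot_iff]
  intro x hx
  have h1 : x ∈ upperUSL F := hU'.ge (Cfsg.Agent.Lib.LocalChar.pCore_le_sylow U hx)
  let w : SL2 := ⟨!![0, 1; -1, 0], by simp [Matrix.det_fin_two]⟩
  have h2 : w * x * w⁻¹ ∈ upperUSL F :=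
    hU'.ge (Cfsg.Agent.Lib.LocalChar.pCore_le_sylow U
      ((Cfsg.Agent.Lib.LocalChar.pCore_normal (p := p) (G := SL2)).conj_mem x hx w))
  obtain ⟨e00, e11, e10⟩ := mem_upperUSL.1 h1
  obtain ⟨-, -, f10⟩ := mem_upperUSL.1 h2
  have hw : (w : Matrix (Fin 2) (Fin 2) F) = !![0, 1; -1, 0] := rfl
  simp [Matrix.adjugate_fin_two, hw, Matrix.mul_apply, Matrix.vecMul, Matrix.vecHead, Fin.sum_univ_two] at f10
  rw [Subgroup.mem_bot]
  ext i j
  fin_cases i <;> fin_cases j <;> simp [e00, e11, e10, f10]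

theorem pCore_qd [Fintype F] [Fact p.Prime] [CharP F p] :
    Cfsg.pCore p ↥(Cfsg.qdOver F) = (toSL (F := F)).ker := by
  refine le_antisymm ?_ (Cfsg.Agent.Lib.LocalChar.le_pCore (MonoidHom.normal_ker _) isPGroup_ker)
  intro x hx
  have h := Cfsg.Agent.Lib.LocalChar.le_pCore (p := p)
    ((Cfsg.Agent.Lib.LocalChar.pCore_normal (p := p) (G := ↥(Cfsg.qdOver F))).map _ toSL_surjective)
    (Cfsg.Agent.Lib.LocalChar.pCore_isPGroup.map _) (Subgroup.mem_map_of_mem _ hx)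
  rw [pCore_SL2, Subgroup.mem_bot] at h
  exact h

end Cfsg.Agent.Lib.LocalChar.QdField
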