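import Cfsg.Agent.Lib.PStab.Consequences
import Cfsg.Agent.Lib.Chev.TwistG2ReeSylow
import Cfsg.Agent.Lib.LocalChar.Core
import Cfsg.Agent.Lib.LocalChar.Norm
import Cfsg.Prelude.Def_LieTwisted

/-! No quadratic action on modules for `L₂(odd)` and the small Ree groups. -/

set_option autoImplicit false
set_option linter.unusedSectionVars false

open Subgroup
open scoped MatrixGroups commutatorElement

namespace Cfsg.Agent.Lib.LocalChar.QuadraticSimple

variable {p : ℕ} [hp : Fact p.Prime]

/-- No section `SL(2, p)` inside `PSL(2, F)`. -/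
theorem no_sl2_psl {F : Type*} [Field F] [Fintype F] (hodd : Odd (Fintype.card F)) (hp2 : p ≠ 2)
    {L : Subgroup (Matrix.ProjectiveSpecialLinearGroup (Fin 2) F)} (π : L →* SL(2, ZMod p))
    (hπ : Function.Surjective π) : False := by
  classical
  haveI : Fact (Nat.Prime 2) := ⟨Nat.prime_two⟩
  have h2F := Classical.two_ne_zero_of_odd_card hodd
  have hoddp : Odd (Fintype.card (ZMod p)) := by rw [ZMod.card]; exact hp.out.odd_of_ne_two hp2
  have h2p := Classical.two_ne_zero_of_odd_card hoddp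
  set q := QuotientGroup.mk' (Subgroup.center SL(2, F)) with hq
  set L₀ := L.comap q
  let r : L₀ →* L := (q.comp L₀.subtype).codRestrict L (fun x => x.2)
  have hr : Function.Surjective r := fun y => by
    obtain ⟨x, hx⟩ := QuotientGroup.mk'_surjective (Subgroup.center SL(2, F)) (y : _)
    exact ⟨⟨x, by show q x ∈ L; rw [hx]; exact y.2⟩, Subtype.ext hx⟩
  set f := π.comp r
  have hf : Function.Surjective f := hπ.comp hr
  obtain ⟨S⟩ : Nonempty (Sylow 2 L₀) := inferInstance
  obtain ⟨k, hk, ⟨e'⟩⟩ := Classical.sl_two_sylow_quaternion hoddp (S.mapSurjective hf)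
  obtain ⟨P, hP⟩ := (S.2.map L₀.subtype).exists_le_sylow
  obtain ⟨n, -, ⟨e⟩⟩ := Classical.sl_two_sylow_quaternion hodd P
  let j : ↥(S : Subgroup L₀) → ↥(P : Subgroup SL(2, F)) := fun s => ⟨(s.1 : SL(2, F)), hP ⟨s.1, s.2, rfl⟩⟩
  have hcent : ∀ s : ↥(S : Subgroup L₀), ∀ i, e (j s) = QuaternionGroup.xa i →
      ∀ y : SL(2, ZMod p), f s.1 * y = y * f s.1 := by
    intro s i hi y
    have h4 : (j s) ^ 4 = 1 := e.injective (by
      rw [map_pow, map_one, hi, ← QuaternionGroup.orderOf_xa i, pow_orderOf_eq_one])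
    have h4' : ((s.1 : SL(2, F)) ^ 2) ^ 2 = 1 := by
      rw [← pow_mul]; exact congrArg Subtype.val h4
    have hz : ((s.1 ^ 2 : L₀) : SL(2, F)) ∈ Subgroup.center SL(2, F) := by
      show (s.1 : SL(2, F)) ^ 2 ∈ _
      rcases Classical.sl_two_sq_eq_one h2F h4' with h | h <;> rw [h]
      · exact one_mem _
      · rw [Subgroup.mem_center_iff]; intro g; simp
    have hr2 : r (s.1 ^ 2) = 1 := Subtype.ext ((QuotientGroup.eq_one_iff _).2 hz)
    have hf2 : (f s.1) ^ 2 = 1 := by
      rw [← map_pow]; show π (r (s.1 ^ 2)) = 1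
      rw [hr2, map_one]
    rcases Classical.sl_two_sq_eq_one h2p hf2 with h | h <;> simp [h]
  have hcomm : ∀ s t : (S : Subgroup L₀), f s.1 * f t.1 = f t.1 * f s.1 := by
    intro s t
    cases hs : e (j s) with
    | xa i => exact hcent s i hs _
    | a i =>
      cases ht : e (j t) with
      | xa l => exact (hcent t l ht _).symm
      | a l =>
        have : j s * j t = j t * j s := e.injective (by
          rw [map_mul, map_mul, hs, ht, QuaternionGroup.a_mul_a, QuaternionGroup.a_mul_a, add_comm])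
        have h2 : s.1 * t.1 = t.1 * s.1 := Subtype.ext (congrArg Subtype.val this :)
        rw [← map_mul, ← map_mul, h2]
  have hall : ∀ a b : ((S.mapSurjective hf : Sylow 2 SL(2, ZMod p)) : Subgroup SL(2, ZMod p)),
      a * b = b * a := by
    rintro ⟨a, ha⟩ ⟨b, hb⟩
    rw [Sylow.coe_mapSurjective] at ha hb
    obtain ⟨x, hx, rfl⟩ := ha
    obtain ⟨y, hy, rfl⟩ := hb
    exact Subtype.ext (hcomm ⟨x, hx⟩ ⟨y, hy⟩)
  have h := congrArg e' (hall (e'.symm (QuaternionGroup.a 1)) (e'.symm (QuaternionGroup.xa 0)))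
  simp only [map_mul, MulEquiv.apply_symm_apply, QuaternionGroup.a_mul_xa, QuaternionGroup.xa_mul_a,
    QuaternionGroup.xa.injEq] at h
  have h1 : ((2 : ℕ) : ZMod (2 * 2 ^ k)) = 0 := by push_cast; linear_combination -h
  rw [ZMod.natCast_eq_zero_iff] at h1
  have h2 := Nat.le_of_dvd (by norm_num) h1
  have : 2 ≤ 2 ^ k := Nat.le_self_pow (by omega) 2
  omega

/-- No section `SL(2, 3)` inside a small Ree group. -/
theorem no_sl2_ree {X : Type*} [Group X] [Finite X] (hX : Cfsg.Lie.IsoRee X) (hp2 : p ≠ 2)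
    {L : Subgroup X} (π : L →* SL(2, ZMod p)) (hπ : Function.Surjective π) : False := by
  obtain ⟨K, _, _, m, -, hK, ⟨e⟩⟩ := hX
  haveI : Fact (Nat.Prime 2) := ⟨Nat.prime_two⟩
  obtain ⟨hc, θ, hθ⟩ := Chev.G2.exists_theta hK
  haveI := hc
  obtain ⟨T⟩ : Nonempty (Sylow 2 X) := inferInstance
  have hfix := Chev.G2.eq_fixed θ hθ hK
  let e' := e.trans (MulEquiv.subgroupCongr hfix)
  have hT : ∀ x ∈ T, x * x = 1 := by
    intro x hx
    have hs : e' x ∈ (T.mapSurjective (f := e'.toMonoidHom) e'.surjective : Sylow 2 _) := ⟨x, hx, rfl⟩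
    have := ((Chev.G2.ree_sylow_two θ hθ hK).1 _).2 (e' x) hs
    rw [← map_mul] at this
    exact e'.injective (this.trans (map_one _).symm)
  have hab : IsMulCommutative T := ⟨⟨fun a b => Subtype.ext (by
    have h := inv_eq_of_mul_eq_one_right (hT _ (mul_mem a.2 b.2))
    calc (a : X) * b = ((a : X) * b)⁻¹ := h.symm
      _ = (b : X)⁻¹ * (a : X)⁻¹ := _root_.mul_inv_rev _ _
      _ = (b : X) * a := by
        rw [inv_eq_of_mul_eq_one_right (hT _ a.2), inv_eq_of_mul_eq_one_right (hT _ b.2)])⟩⟩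
  obtain ⟨T₀⟩ : Nonempty (Sylow 2 (⊤ : Subgroup X)) := inferInstance
  refine PStab.not_isMulCommutative_sylow_two hp2 (le_top (a := L)) π hπ T₀ ?_
  obtain ⟨g, hg⟩ := MulAction.exists_smul_eq X
    (T₀.mapSurjective (f := (Subgroup.topEquiv (G := X)).toMonoidHom) Subgroup.topEquiv.surjective) T
  refine ⟨⟨fun a b => Subtype.ext (Subtype.ext ?_)⟩⟩
  have hm : ∀ c : T₀, g * ((c : (⊤ : Subgroup X)) : X) * g⁻¹ ∈ (T : Subgroup X) := fun c => by
    rw [← hg, Sylow.coe_subgroup_smul]
    exact ⟨_, ⟨c, c.2, rfl⟩, rfl⟩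
  have h := congrArg Subtype.val (hab.is_comm.comm ⟨_, hm a⟩ ⟨_, hm b⟩)
  simp only [Subgroup.coe_mul] at h
  have h3 := congrArg (fun t => g⁻¹ * t * g) h
  simpa [mul_assoc] using h3

theorem le_normalizer_inr {N X : Type*} [Group N] [Group X] (φ : X →* MulAut N) :
    (SemidirectProduct.inr : X →* SemidirectProduct N X φ).range ≤
      normalizer ((SemidirectProduct.inl : N →* SemidirectProduct N X φ).range : Set (SemidirectProduct N X φ)) := by
  rw [SemidirectProduct.range_inl_eq_ker_rightHom]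
  exact le_normalizer_of_normal

theorem commutator_eq_bot {G : Type*} [Group G] [Finite G] (V H : Subgroup G)
    (hV : Cfsg.IsElementaryAbelian p V) (hHV : H ≤ normalizer (V : Set G))
    (hirr : ∀ U : Subgroup G, U ≤ V → H ≤ normalizer (U : Set G) → U = ⊥ ∨ U = V)
    (hnt : ¬ H ≤ centralizer (V : Set G)) [((centralizer (V : Set G)).subgroupOf H).Normal]
    (hq : (∃ (F : Type) (_ : Field F) (_ : Fintype F) (n : ℕ), Fintype.card F = p ^ n ∧
        Odd (Fintype.card F) ∧ Nonempty (↥H ⧸ (centralizer (V : Set G)).subgroupOf H ≃*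
          Matrix.ProjectiveSpecialLinearGroup (Fin 2) F)) ∨
      (p = 3 ∧ Cfsg.Lie.IsoRee (↥H ⧸ (centralizer (V : Set G)).subgroupOf H)))
    (A : Subgroup G) (hA : A ≤ H) (hquad : ⁅⁅V, A⁆, A⁆ = ⊥) : ⁅V, A⁆ = ⊥ := by
  classical
  have hp2 : p ≠ 2 := by
    rcases hq with ⟨F, _, _, n, hF, hodd, -⟩ | ⟨h3, -⟩
    · rintro rfl
      rcases Nat.eq_zero_or_pos n with rfl | h0
      · exact absurd (hF.trans (pow_zero 2)) (Fintype.one_lt_card (α := F)).ne'
      · exact Nat.not_even_iff_odd.2 hodd (hF ▸ (even_two.pow_of_ne_zero h0.ne'))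
    · omega
  by_contra hne
  obtain ⟨a, haA, hac⟩ := SetLike.not_le_iff_exists.1
    (fun h : A ≤ centralizer (V : Set G) => hne (by
      rw [commutator_comm]; exact commutator_eq_bot_iff_le_centralizer.2 h))
  set C := (centralizer (V : Set G)).subgroupOf H
  let f : H →* MulAut V := V.normalizerMonoidHom.comp (inclusion hHV)
  have hf : ∀ (h : H) (v : V), ((f h v : V) : G) = h * v * (h : G)⁻¹ := fun h v => rfl
  have hker : ∀ h : H, f h = 1 ↔ h ∈ C := by
    intro h
    rw [mem_subgroupOf, mem_centralizer_iff]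
    constructor
    · intro e v hv
      have := congrArg Subtype.val (DFunLike.congr_fun e ⟨v, hv⟩)
      rw [hf] at this
      exact (mul_inv_eq_iff_eq_mul.1 this).symm
    · intro e
      ext v
      rw [hf]
      show _ = (v : G)
      rw [mul_inv_eq_iff_eq_mul]
      exact (e v v.2).symm
  let φ : H ⧸ C →* MulAut V := QuotientGroup.lift C f (fun h hh => (hker h).2 hh)
  have hφ : Function.Injective φ := by
    rw [← MonoidHom.ker_eq_bot_iff, eq_bot_iff]
    intro x hx
    obtain ⟨h, rfl⟩ := QuotientGroup.mk'_surjective C x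
    exact (QuotientGroup.eq_one_iff h).2 ((hker h).1 hx)
  have hφmk : ∀ (h : H), φ (QuotientGroup.mk' C h) = f h := fun h => rfl
  -- the `p`-core of the quotient is trivial
  have hcore : Cfsg.pCore p (H ⧸ C) = ⊥ := by
    set P := Cfsg.pCore p (H ⧸ C)
    haveI : P.Normal := pCore_normal
    let U : Subgroup G := (⨅ x : P, (φ x).toMonoidHom.eqLocus (MonoidHom.id V)).map V.subtype
    have hmemU : ∀ v : V, (v : G) ∈ U ↔ ∀ x ∈ P, φ x v = v := by
      intro v
      constructor
      · rintro ⟨w, hw, hwv⟩ x hx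
        obtain rfl : w = v := Subtype.ext hwv
        exact (mem_iInf.1 hw) ⟨x, hx⟩
      · exact fun h => ⟨v, mem_iInf.2 fun x => h x x.2, rfl⟩
    have hUH : H ≤ normalizer (U : Set G) := by
      refine le_nz_iff.2 fun h hh u hu => ?_
      obtain ⟨v, -, rfl⟩ := id hu
      have e : h * (v : G) * h⁻¹ = ((f ⟨h, hh⟩ v : V) : G) := (hf ⟨h, hh⟩ v).symm
      show h * (v : G) * h⁻¹ ∈ U
      rw [e, hmemU]
      intro x hx
      set y : H ⧸ C := QuotientGroup.mk' C ⟨h, hh⟩
      have hy : y⁻¹ * x * y ∈ P := by simpa using Normal.conj_mem inferInstance x hx y⁻¹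
      have := congrArg (φ y) (((hmemU v).1 hu) _ hy)
      simp only [map_mul, map_inv, MulAut.mul_apply, MulAut.apply_inv_self] at this
      exact this
    rcases hirr U (map_subtype_le _) hUH with h0 | h0
    · exfalso
      have hVne : V ≠ ⊥ := by
        rintro rfl
        exact hnt fun h _ => mem_centralizer_iff.2 fun v hv => by
          rw [show v = 1 from mem_bot.1 hv, one_mul, mul_one]
      let W := SemidirectProduct V (H ⧸ C) φ
      haveI : Finite W := Finite.of_equiv _ SemidirectProduct.equivProd.symm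
      have hP' : IsPGroup p (P.map (SemidirectProduct.inr : H ⧸ C →* W)) := pCore_isPGroup.map _
      have hV' : IsPGroup p (SemidirectProduct.inl : V →* W).range := by
        rintro ⟨_, v, rfl⟩
        exact ⟨1, Subtype.ext (by
          show SemidirectProduct.inl v ^ p ^ 1 = 1
          rw [pow_one, ← map_pow, show v ^ p = 1 from Subtype.ext (hV.2 v v.2), map_one])⟩
      obtain ⟨u, ⟨v, rfl⟩, hu1, hu⟩ := exists_fixed hV' hP'
        ((Subgroup.map_le_range _ _).trans (le_normalizer_inr φ)) (fun e => by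
          refine hVne ((Subgroup.eq_bot_iff_forall V).2 fun v hv => ?_)
          have hh : SemidirectProduct.inl (φ := φ) ⟨v, hv⟩ ∈ (SemidirectProduct.inl : V →* W).range :=
            ⟨_, rfl⟩
          rw [e, mem_bot] at hh
          exact congrArg Subtype.val (SemidirectProduct.inl_injective (hh.trans (map_one _).symm)))
      refine hu1 ?_
      have : (v : G) ∈ U := by
        rw [hmemU]
        intro x hx
        have h := (hu _ ⟨x, hx, rfl⟩).eq
        apply SemidirectProduct.inl_injective (φ := φ)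
        rw [SemidirectProduct.inl_aut, h, map_inv, mul_inv_cancel_right]
      rw [h0, mem_bot] at this
      rw [show v = 1 from Subtype.ext this, map_one]
    · rw [eq_bot_iff]
      intro x hx
      rw [mem_bot]
      apply hφ
      rw [map_one]
      ext v
      exact congrArg Subtype.val ((hmemU v).1 (by rw [h0]; exact v.2) x hx)
  -- a quadratic element gives a section `SL(2, p)`
  let W := SemidirectProduct V (H ⧸ C) φ
  haveI : Finite W := Finite.of_equiv _ SemidirectProduct.equivProd.symm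
  set V' : Subgroup W := (SemidirectProduct.inl : V →* W).range
  set H' : Subgroup W := (SemidirectProduct.inr : H ⧸ C →* W).range
  have hV' : Cfsg.IsElementaryAbelian p V' := by
    refine ⟨⟨⟨?_⟩⟩, ?_⟩
    · rintro ⟨_, v, rfl⟩ ⟨_, w, rfl⟩
      apply Subtype.ext
      show SemidirectProduct.inl v * SemidirectProduct.inl w = SemidirectProduct.inl w * SemidirectProduct.inl v
      rw [← map_mul, ← map_mul, show v * w = w * v from
        Subtype.ext (congrArg (fun z : V => (z : G)) (hV.1.is_comm.comm v w))]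
    · rintro _ ⟨v, rfl⟩
      rw [← map_pow, show v ^ p = 1 from Subtype.ext (hV.2 v v.2), map_one]
  have hfaith : H' ⊓ centralizer (V' : Set W) = ⊥ := by
    rw [eq_bot_iff]
    rintro _ ⟨⟨x, rfl⟩, hc⟩
    rw [mem_bot, show x = 1 from hφ (by
      rw [map_one]; ext v
      have h := mem_centralizer_iff.1 hc _ ⟨v, rfl⟩
      have h2 : SemidirectProduct.inl (φ := φ) (φ x v) = SemidirectProduct.inl v := by
        rw [SemidirectProduct.inl_aut, ← h, map_inv, mul_inv_cancel_right]
      exact congrArg Subtype.val (SemidirectProduct.inl_injective h2)), map_one]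
  set x := QuotientGroup.mk' C ⟨a, hA haA⟩
  have hquad' : ∀ w ∈ V', Commute (SemidirectProduct.inr x : W) ⁅(SemidirectProduct.inr x : W), w⁆ := by
    rintro _ ⟨v, rfl⟩
    have e : ⁅(SemidirectProduct.inr x : W), (SemidirectProduct.inl v : W)⁆ = SemidirectProduct.inl (φ x v * v⁻¹) := by
      rw [map_mul, SemidirectProduct.inl_aut, map_inv, map_inv, commutatorElement_def]
    have hq1 := PStab.commute_commutator_of_quadratic haA hquad v v.2
    have hfix : φ x (φ x v * v⁻¹) = φ x v * v⁻¹ := by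
      apply Subtype.ext
      rw [show φ x = f ⟨a, hA haA⟩ from hφmk _, hf]
      rw [mul_inv_eq_iff_eq_mul]
      have e1 : ((f ⟨a, hA haA⟩ v * v⁻¹ : V) : G) = ⁅a, (v : G)⁆ := by
        rw [Subgroup.coe_mul, hf, commutatorElement_def]; rfl
      rw [e1]
      exact hq1.eq
    rw [e]
    have h3 : SemidirectProduct.inl (φ := φ) (φ x (φ x v * v⁻¹)) = SemidirectProduct.inl (φ x v * v⁻¹) := by
      rw [hfix]
    rw [SemidirectProduct.inl_aut, map_inv, mul_inv_eq_iff_eq_mul] at h3
    exact h3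
  obtain ⟨L, π, hL, hπ⟩ := PStab.exists_sl2_of_not_mem_pCore hp2 hV' (le_normalizer_inr φ) hfaith
    ⟨x, rfl⟩ hquad' (fun hmem => hac (by
      have hx0 : (⟨_, ⟨x, rfl⟩⟩ : H') = 1 := by
        have hb : Cfsg.pCore p H' = ⊥ := by
          rw [← pCore_map_equiv (MonoidHom.ofInjective (f := (SemidirectProduct.inr : H ⧸ C →* W))
            SemidirectProduct.inr_injective), hcore, Subgroup.map_bot]
        rw [hb, mem_bot] at hmem
        exact hmem
      have hx1 : x = 1 := SemidirectProduct.inr_injective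
        ((congrArg Subtype.val hx0).trans (map_one _).symm)
      exact mem_subgroupOf.1 ((QuotientGroup.eq_one_iff _).1 hx1)))
  -- transport the section to the quotient
  let L' : Subgroup (H ⧸ C) := L.comap (SemidirectProduct.inr : H ⧸ C →* W)
  let τ : L' →* L := ((SemidirectProduct.inr : H ⧸ C →* W).comp L'.subtype).codRestrict L (fun y => y.2)
  have hτ : Function.Surjective τ := fun y => by
    obtain ⟨z, hz⟩ := hL y.2
    exact ⟨⟨z, by show SemidirectProduct.inr z ∈ L; rw [hz]; exact y.2⟩, Subtype.ext hz⟩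
  rcases hq with ⟨F, _, _, n, -, hodd, ⟨e⟩⟩ | ⟨-, hree⟩
  · let L'' := L'.comap e.symm.toMonoidHom
    let σ : L'' →* L' := (e.symm.toMonoidHom.comp L''.subtype).codRestrict L' (fun y => y.2)
    refine no_sl2_psl hodd hp2 ((π.comp τ).comp σ) ((hπ.comp hτ).comp fun y => ?_)
    exact ⟨⟨e y, by show e.symm (e y) ∈ L'; rw [e.symm_apply_apply]; exact y.2⟩,
      Subtype.ext (e.symm_apply_apply _)⟩
  · exact no_sl2_ree hree hp2 (π.comp τ) (hπ.comp hτ)

end Cfsg.Agent.Lib.LocalChar.QuadraticSimple
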